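import Cfsg.Agent.H210.Off.Suz
import Cfsg.Agent.GH.L2Aut
import Cfsg.Agent.Lib.PSL2Circle
import Cfsg.Agent.StdSz.ExoticFive
import Cfsg.Agent.SignalizersComponents.CompBasic
import Cfsg.Agent.ClassicalGeometry.PSL2Basic
import Cfsg.Agent.Involutions.IndexFive
import Cfsg.Agent.TwoFusion.FStarControl
import Cfsg.Agent.OddRank.SzTits
import Mathlib.GroupTheory.FiniteAbelian.Duality
import Mathlib.RingTheory.RootsOfUnity.AlgebraicallyClosed
set_option linter.all false

-- part: H210/Off/Struct
section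
/-!
# Permuted components
-/

set_option autoImplicit false
open Cfsg

namespace Cfsg.Agent.H210.Off

open Subgroup
open Cfsg.Agent.OddCyclic.T1Module Cfsg.Agent.OddCyclic.FFBasic Cfsg.Agent.OddCyclic.FFRed

variable {G : Type*} [Group G]

/-- the conjugates of `D` under `A` are equal to `D` or commute with `D` -/
def TIc (A D : Subgroup G) : Prop :=
  ∀ a ∈ A, a ∈ normalizer (D : Set G) ∨ ∀ x ∈ D, ∀ y ∈ D, (a * x * a⁻¹) * y = y * (a * x * a⁻¹)

theorem mem_normalizer_of_finite [Finite G] {a : G} {D : Subgroup G} (h : ∀ d ∈ D, a * d * a⁻¹ ∈ D) :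
    a ∈ normalizer (D : Set G) := by
  have h1 : D.map (MulAut.conj a).toMonoidHom ≤ D := by
    rintro _ ⟨d, hd, rfl⟩
    exact h d hd
  have h2 : D.map (MulAut.conj a).toMonoidHom = D := by
    apply Subgroup.eq_of_le_of_card_ge h1
    rw [Subgroup.card_map_of_injective (MulAut.conj a).injective]
  rw [mem_normalizer_iff]
  intro d
  refine ⟨h d, fun hd => ?_⟩
  have h3 : a * d * a⁻¹ ∈ D.map (MulAut.conj a).toMonoidHom := by rw [h2]; exact hd
  obtain ⟨d', hd', he⟩ := h3
  have : d' = d := (MulAut.conj a).injective he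
  rwa [← this]

/-- **odd order subgroups from permuted subgroups** -/
theorem exists_odd_of_perm [Finite G] {A L R₀ : Subgroup G} (hA : ∀ a ∈ A, a * a = 1)
    (hTI : TIc A L) (hR₀L : R₀ ≤ L) (hodd : Odd (Nat.card R₀))
    (hn : A ⊓ normalizer (L : Set G) ≤ normalizer (R₀ : Set G))
    (hne : (¬ A ⊓ normalizer (L : Set G) ≤ centralizer (R₀ : Set G)) ∨
      ((¬ A ≤ normalizer (L : Set G)) ∧ ¬ R₀ ≤ centralizer (L : Set G))) :
    ∃ R : Subgroup G, Odd (Nat.card R) ∧ A ≤ normalizer (R : Set G) ∧ ¬ A ≤ centralizer (R : Set G) := by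
  obtain ⟨R, hR⟩ : ∃ R, R = ⨆ a : A, R₀.map (MulAut.conj (a : G)).toMonoidHom := ⟨_, rfl⟩
  have hle : ∀ a : A, R₀.map (MulAut.conj (a : G)).toMonoidHom ≤ R := fun a => by
    rw [hR]; exact le_iSup (fun a : A => R₀.map (MulAut.conj (a : G)).toMonoidHom) a
  have hR₀R : R₀ ≤ R := by
    have := hle 1
    intro x hx
    exact this ⟨x, hx, by simp⟩
  -- the conjugates normalise each other
  have hnorm : ∀ a b : A, ∀ x ∈ R₀.map (MulAut.conj (a : G)).toMonoidHom,
      ∀ y ∈ R₀.map (MulAut.conj (b : G)).toMonoidHom,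
      y * x * y⁻¹ ∈ R₀.map (MulAut.conj (a : G)).toMonoidHom := by
    rintro a b _ ⟨x, hx, rfl⟩ _ ⟨y, hy, rfl⟩
    show (b : G) * y * (b : G)⁻¹ * (a * x * (a : G)⁻¹) * ((b : G) * y * (b : G)⁻¹)⁻¹ ∈ _
    have hab : (a : G)⁻¹ * b ∈ A := mul_mem (inv_mem a.2) b.2
    rcases hTI _ hab with h | h
    · -- the conjugates are equal
      have h1 := hn ⟨hab, h⟩
      have h2 := (mem_normalizer_iff.1 h1 y).1 hy
      refine ⟨((a : G)⁻¹ * b * y * ((a : G)⁻¹ * b)⁻¹) * x * ((a : G)⁻¹ * b * y * ((a : G)⁻¹ * b)⁻¹)⁻¹,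
        mul_mem (mul_mem h2 hx) (inv_mem h2), ?_⟩
      show (a : G) * _ * (a : G)⁻¹ = _
      simp [mul_assoc]
    · have h1 := h y (hR₀L hy) x (hR₀L hx)
      refine ⟨x, hx, ?_⟩
      show (a : G) * x * (a : G)⁻¹ = _
      have h2 : x = ((a : G)⁻¹ * b * y * ((a : G)⁻¹ * b)⁻¹) * x * ((a : G)⁻¹ * b * y * ((a : G)⁻¹ * b)⁻¹)⁻¹ := by
        rw [h1, mul_inv_cancel_right]
      conv_lhs => rw [h2]
      simp [mul_assoc]
  refine ⟨R, ?_, ?_, ?_⟩
  · -- odd order
    have hnR : ∀ a : A, ((R₀.map (MulAut.conj (a : G)).toMonoidHom).subgroupOf R).Normal := by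
      intro a
      refine ⟨fun x hx g => ?_⟩
      rw [mem_subgroupOf] at hx ⊢
      have hg : (g : G) ∈ normalizer ((R₀.map (MulAut.conj (a : G)).toMonoidHom : Subgroup G) : Set G) := by
        have : R ≤ normalizer ((R₀.map (MulAut.conj (a : G)).toMonoidHom : Subgroup G) : Set G) := by
          rw [hR]
          apply iSup_le
          intro b y hy
          exact mem_normalizer_of_finite (fun x hx => hnorm a b x hx y hy)
        exact this g.2
      exact (mem_normalizer_iff.1 hg x).1 hx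
    have htop : pPrimeCore 2 R = ⊤ := by
      rw [eq_top_iff]
      have h1 : ∀ a : A, (R₀.map (MulAut.conj (a : G)).toMonoidHom).subgroupOf R ≤ pPrimeCore 2 R := by
        intro a
        apply Cfsg.Agent.Lib.Cores.le_pPrimeCore (hnR a)
        rw [Nat.card_congr (Subgroup.subgroupOfEquivOfLe (hle a)).toEquiv,
          Subgroup.card_map_of_injective (MulAut.conj (a : G)).injective]
        exact (Nat.coprime_two_right).2 hodd
      intro x _
      have h2 : R ≤ (pPrimeCore 2 R).map R.subtype := by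
        conv_lhs => rw [hR]
        apply iSup_le
        intro a y hy
        exact ⟨⟨y, hle a hy⟩, h1 a (by rw [mem_subgroupOf]; exact hy), rfl⟩
      obtain ⟨z, hz, hzx⟩ := h2 x.2
      have : z = x := Subtype.ext hzx
      rwa [← this]
    have h2 := Cfsg.Agent.Lib.Cores.pPrimeCore_coprime (G := R) 2
    rw [htop, Nat.card_congr Subgroup.topEquiv.toEquiv] at h2
    exact (Nat.coprime_two_right).1 h2
  · intro b hb
    apply mem_normalizer_of_finite
    intro d hd
    have h1 : R ≤ R.comap (MulAut.conj b).toMonoidHom := by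
      conv_lhs => rw [hR]
      apply iSup_le
      rintro a _ ⟨x, hx, rfl⟩
      show b * (a * x * (a : G)⁻¹) * b⁻¹ ∈ R
      apply hle ⟨b * a, mul_mem hb a.2⟩
      refine ⟨x, hx, ?_⟩
      show b * a * x * (b * a)⁻¹ = _
      simp [mul_assoc]
    exact h1 hd
  · intro hcen
    rcases hne with h | ⟨h, h'⟩
    · apply h
      exact (inf_le_left.trans hcen).trans (Subgroup.centralizer_le hR₀R)
    · obtain ⟨a, ha, haL⟩ := SetLike.not_le_iff_exists.1 h
      apply h'
      intro x hx
      rw [mem_centralizer_iff]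
      intro y hy
      have h1 := (hTI a ha).resolve_left haL x (hR₀L hx) y hy
      have h2 := mem_centralizer_iff.1 (hcen ha) x (hR₀R hx)
      have h3 : a * x * a⁻¹ = x := by rw [← h2]; simp
      rw [h3] at h1
      exact h1.symm

theorem card_sq_le [Finite G] {V : Type*} [CommGroup V] [Finite V] {ρ : G →* MulAut V} {A B : Subgroup G}
    (hBA : B ≤ A) (h1 : Nat.card B ^ 2 ≤ (CS ρ B).index)
    (h2 : (B.relIndex A) ^ 2 ≤ (CS ρ A).relIndex (CS ρ B)) : Nat.card A ^ 2 ≤ (CS ρ A).index := by
  rw [← card_mul_relIndex hBA, mul_pow, ← Subgroup.relIndex_mul_index (CS_anti (ρ := ρ) hBA), mul_comm]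
  exact Nat.mul_le_mul h2 h1

/-- **Suzuki subgroups permuted by `A`** -/
theorem step_sz_perm [Finite G] {V : Type*} [CommGroup V] [Finite V] {ρ : G →* MulAut V}
    (hρ : Function.Injective ρ) (hV : ∀ v : V, v * v = 1) {A : Subgroup G}
    (hA : ∀ a ∈ A, a * a = 1) (hind : ∀ B < A, Nat.card B ^ 2 ≤ (CS ρ B).index) :
    ∀ (k : ℕ) (D : Subgroup G), (A ⊓ normalizer (D : Set G)).relIndex A = k → Cfsg.Lie.IsoSuzuki D →
      TIc A D → (¬ A ⊓ normalizer (D : Set G) ≤ centralizer (D : Set G)) →
      Nat.card A ^ 2 ≤ (CS ρ A).index := by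
  intro k
  induction k using Nat.strong_induction_on with
  | _ k ih =>
    intro D hk hD hTI hne
    by_cases hAD : A ≤ normalizer (D : Set G)
    · -- base case
      have hlt : A ⊓ centralizer (D : Set G) < A := by
        refine lt_of_le_of_ne inf_le_left ?_
        intro h
        apply hne
        intro a ha
        have : a ∈ A ⊓ centralizer (D : Set G) := by rw [h]; exact ha.1
        exact this.2
      exact card_sq_le inf_le_left (hind _ hlt) (step_sz hρ hV hA hD hAD)
    · obtain ⟨c, hc, hcD⟩ := SetLike.not_le_iff_exists.1 hAD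
      have hcc := hA c hc
      have hcomm : ∀ x ∈ D, ∀ y ∈ D, (c * x * c⁻¹) * y = y * (c * x * c⁻¹) :=
        (hTI c hc).resolve_left hcD
      have hinv : c⁻¹ = c := inv_eq_of_mul_eq_one_left hcc
      have hz : ∀ z ∈ D, (∀ y ∈ D, z * y = y * z) → z = 1 := by
        intro z hz h
        have h1 := Cfsg.Agent.OddCyclic.CaseESz.inf_centralizer hD
        have h2 : z ∈ D ⊓ centralizer (D : Set G) := ⟨hz, by
          show z ∈ centralizer (D : Set G)
          rw [mem_centralizer_iff]
          intro y hy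
          exact (h y hy).symm⟩
        rwa [h1, mem_bot] at h2
      let δ : D →* G :=
        { toFun := fun x => x * (c * x * c⁻¹)
          map_one' := by simp
          map_mul' := by
            intro x y
            have h1 := hcomm x x.2 y y.2
            show (x : G) * y * (c * (x * y) * c⁻¹) = x * (c * x * c⁻¹) * (y * (c * y * c⁻¹))
            calc (x : G) * y * (c * (x * y) * c⁻¹) = x * (y * (c * x * c⁻¹)) * (c * y * c⁻¹) := by
                  simp [mul_assoc]
              _ = x * ((c * x * c⁻¹) * y) * (c * y * c⁻¹) := by rw [h1]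
              _ = _ := by simp [mul_assoc] }
      have hδ : ∀ x : D, δ x = x * (c * x * c⁻¹) := fun _ => rfl
      have hδinj : Function.Injective δ := by
        rw [← MonoidHom.ker_eq_bot_iff, eq_bot_iff]
        intro x hx
        rw [MonoidHom.mem_ker, hδ] at hx
        rw [mem_bot]
        apply Subtype.ext
        apply hz x x.2
        intro y hy
        have h1 : (x : G) = (c * x * c⁻¹)⁻¹ := eq_inv_of_mul_eq_one_left hx
        have h2 := hcomm x x.2 y hy
        have h3 : (c * x * c⁻¹)⁻¹ * y = y * (c * x * c⁻¹)⁻¹ :=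
          (show Commute (c * x * c⁻¹) y from h2).inv_left.eq
        rw [← h1] at h3
        exact h3
      have hcδ : ∀ x : D, c * δ x * c⁻¹ = δ x := by
        intro x
        rw [hδ]
        have h1 := hcomm x x.2 x x.2
        calc c * (x * (c * x * c⁻¹)) * c⁻¹ = (c * x * c⁻¹) * ((c * c) * x * (c * c)⁻¹) := by
              simp [mul_assoc]
          _ = (c * x * c⁻¹) * x := by rw [hcc]; simp
          _ = _ := h1
      have hbδ : ∀ b ∈ A, ∀ (hb : b ∈ normalizer (D : Set G)) (x : D),
          b * δ x * b⁻¹ = δ ⟨b * x * b⁻¹, (mem_normalizer_iff.1 hb x).1 x.2⟩ := by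
        intro b hbA hb x
        rw [hδ, hδ]
        have h1 : b * c = c * b := comm_of_sq hA hbA hc
        have h2 : c⁻¹ * b⁻¹ = b⁻¹ * c⁻¹ := by rw [← mul_inv_rev, ← mul_inv_rev, h1]
        calc b * (x * (c * x * c⁻¹)) * b⁻¹ = (b * x * b⁻¹) * ((b * c) * x * (c⁻¹ * b⁻¹)) := by
              simp [mul_assoc]
          _ = (b * x * b⁻¹) * ((c * b) * x * (b⁻¹ * c⁻¹)) := by rw [h1, h2]
          _ = _ := by simp [mul_assoc]
      -- the new subgroup
      have hnc : c ∈ normalizer ((δ.range : Subgroup G) : Set G) := by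
        apply mem_normalizer_of_finite
        rintro _ ⟨x, rfl⟩
        exact ⟨x, (hcδ x).symm⟩
      have hnb : ∀ b ∈ A, b ∈ normalizer (D : Set G) → b ∈ normalizer ((δ.range : Subgroup G) : Set G) := by
        intro b hbA hb
        apply mem_normalizer_of_finite
        rintro _ ⟨x, rfl⟩
        exact ⟨_, (hbδ b hbA hb x).symm⟩
      have hsuz : Cfsg.Lie.IsoSuzuki δ.range :=
        Cfsg.Agent.ThreePrime.ACFacts.isoSuzuki_of_equiv (MonoidHom.ofInjective hδinj).symm hD
      have hTI' : TIc A δ.range := by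
        intro a ha
        by_cases h1 : a ∈ normalizer (D : Set G)
        · exact Or.inl (hnb a ha h1)
        by_cases h2 : c * a ∈ normalizer (D : Set G)
        · left
          have h3 : a = c * (c * a) := by rw [← mul_assoc, hcc, one_mul]
          rw [h3]
          exact mul_mem hnc (hnb _ (mul_mem hc ha) h2)
        right
        have hac : a * c = c * a := comm_of_sq hA ha hc
        have k1 := (hTI a ha).resolve_left h1
        have k2 := (hTI _ (mul_mem hc ha)).resolve_left h2
        -- D^a and D^c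
        have k3 : ∀ x ∈ D, ∀ y ∈ D, (a * x * a⁻¹) * (c * y * c⁻¹) = (c * y * c⁻¹) * (a * x * a⁻¹) := by
          intro x hx y hy
          have := k2 x hx y hy
          have h5 : a * x * a⁻¹ = c * (c * a * x * (c * a)⁻¹) * c⁻¹ := by
            calc a * x * a⁻¹ = (c * c) * a * x * a⁻¹ * (c * c)⁻¹ := by rw [hcc]; simp
              _ = _ := by simp [mul_assoc]
          rw [h5]
          calc c * (c * a * x * (c * a)⁻¹) * c⁻¹ * (c * y * c⁻¹)
              = c * ((c * a * x * (c * a)⁻¹) * y) * c⁻¹ := by simp [mul_assoc]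
            _ = c * (y * (c * a * x * (c * a)⁻¹)) * c⁻¹ := by rw [this]
            _ = _ := by simp [mul_assoc]
        have k4 : ∀ x ∈ D, ∀ y ∈ D, (c * a * x * (c * a)⁻¹) * (c * y * c⁻¹) =
            (c * y * c⁻¹) * (c * a * x * (c * a)⁻¹) := by
          intro x hx y hy
          have := k1 x hx y hy
          calc (c * a * x * (c * a)⁻¹) * (c * y * c⁻¹) = c * ((a * x * a⁻¹) * y) * c⁻¹ := by
                simp [mul_assoc]
            _ = c * (y * (a * x * a⁻¹)) * c⁻¹ := by rw [this]
            _ = _ := by simp [mul_assoc]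
        rintro _ ⟨x, rfl⟩ _ ⟨y, rfl⟩
        rw [hδ, hδ]
        have e1 : a * (x * (c * x * c⁻¹)) * a⁻¹ = (a * x * a⁻¹) * (c * a * x * (c * a)⁻¹) := by
          calc a * (x * (c * x * c⁻¹)) * a⁻¹ = (a * x * a⁻¹) * ((a * c) * x * (a * c)⁻¹) := by
                simp [mul_assoc]
            _ = _ := by rw [hac]
        rw [e1]
        have c1 : Commute (a * (x : G) * a⁻¹) (y : G) := k1 x x.2 y y.2
        have c2 : Commute (a * (x : G) * a⁻¹) (c * (y : G) * c⁻¹) := k3 x x.2 y y.2
        have c3 : Commute (c * a * (x : G) * (c * a)⁻¹) (y : G) := k2 x x.2 y y.2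
        have c4 : Commute (c * a * (x : G) * (c * a)⁻¹) (c * (y : G) * c⁻¹) := k4 x x.2 y y.2
        exact ((c1.mul_right c2).mul_left (c3.mul_right c4)).eq
      have hne' : ¬ A ⊓ normalizer ((δ.range : Subgroup G) : Set G) ≤
          centralizer ((δ.range : Subgroup G) : Set G) := by
        intro h
        apply hne
        rintro b ⟨hbA, hb⟩
        show b ∈ centralizer (D : Set G)
        rw [mem_centralizer_iff]
        intro x hx
        have h1 := mem_centralizer_iff.1 (h ⟨hbA, hnb b hbA hb⟩) (δ ⟨x, hx⟩) ⟨_, rfl⟩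
        have h2 : b * δ ⟨x, hx⟩ * b⁻¹ = δ ⟨x, hx⟩ := by rw [← h1]; simp
        rw [hbδ b hbA hb] at h2
        have h3 : b * x * b⁻¹ = x := congrArg Subtype.val (hδinj h2)
        have h4 := congrArg (· * b) h3
        simpa [mul_assoc] using h4.symm
      refine ih _ ?_ δ.range rfl hsuz hTI' hne'
      rw [← hk]
      have hle : A ⊓ normalizer (D : Set G) ≤ A ⊓ normalizer ((δ.range : Subgroup G) : Set G) :=
        fun b hb => ⟨hb.1, hnb b hb.1 hb.2⟩
      have hlt : A ⊓ normalizer (D : Set G) < A ⊓ normalizer ((δ.range : Subgroup G) : Set G) := by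
        refine lt_of_le_of_ne hle ?_
        intro h
        have : c ∈ A ⊓ normalizer (D : Set G) := by rw [h]; exact ⟨hc, hnc⟩
        exact hcD this.2
      have h1 := card_mul_relIndex (inf_le_left : A ⊓ normalizer (D : Set G) ≤ A)
      have h2 := card_mul_relIndex (inf_le_left : A ⊓ normalizer ((δ.range : Subgroup G) : Set G) ≤ A)
      have h3 : Nat.card ↥(A ⊓ normalizer (D : Set G)) <
          Nat.card ↥(A ⊓ normalizer ((δ.range : Subgroup G) : Set G)) := by
        rcases lt_or_eq_of_le (Subgroup.card_le_of_le hle) with h | h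
        · exact h
        · exact absurd (Subgroup.eq_of_le_of_card_ge hle h.ge) hlt.ne
      have h4 : 0 < Nat.card A := Nat.card_pos
      by_contra hcon
      push Not at hcon
      have h5 : Nat.card ↥(A ⊓ normalizer (D : Set G)) * (A ⊓ normalizer (D : Set G)).relIndex A <
          Nat.card ↥(A ⊓ normalizer ((δ.range : Subgroup G) : Set G)) *
            (A ⊓ normalizer ((δ.range : Subgroup G) : Set G)).relIndex A := by
        have h6 : 0 < (A ⊓ normalizer (D : Set G)).relIndex A := by
          rcases Nat.eq_zero_or_pos ((A ⊓ normalizer (D : Set G)).relIndex A) with h | h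
          · rw [h, mul_zero] at h1; omega
          · exact h
        exact lt_of_lt_of_le (Nat.mul_lt_mul_of_pos_right h3 h6) (Nat.mul_le_mul_left _ hcon)
      rw [h1, h2] at h5
      exact lt_irrefl _ h5

end Cfsg.Agent.H210.Off
end

-- part: H210/Off/PslMat
section
/-!
# Involutory automorphisms of `PSL(2, 3^(2n+1))`: matrix computations
-/

set_option autoImplicit false

namespace Cfsg.Agent.H210.Off

open Matrix Cfsg.Agent.Lib.SL2Mat Cfsg.Agent.Lib.PSL2Circle Cfsg.Agent.Lib.PSL2Inv
open Cfsg.Agent.GH.L2Aut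

variable {F : Type*} [Field F]

/-- if `g² = e²`, `g` not scalar, there is a nilpotent `N ≠ 0` with `g N = - N g` -/
theorem exists_nilpotent (g : Matrix (Fin 2) (Fin 2) F) (e : F)
    (hg : g * g = (e * e) • (1 : Matrix (Fin 2) (Fin 2) F))
    (h1 : g - e • 1 ≠ 0) (h2 : g + e • 1 ≠ 0) :
    ∃ N : Matrix (Fin 2) (Fin 2) F, N ≠ 0 ∧ N * N = 0 ∧ g * N = - (N * g) ∧ N.trace = 0 ∧ N.det = 0 := by
  obtain ⟨i, j, hij⟩ : ∃ i j, (g - e • 1) i j ≠ 0 := by
    by_contra hcon
    push Not at hcon
    exact h1 (by ext i j; exact hcon i j)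
  obtain ⟨k, l, hkl⟩ : ∃ i j, (g + e • 1) i j ≠ 0 := by
    by_contra hcon
    push Not at hcon
    exact h2 (by ext i j; exact hcon i j)
  have hz : (g + e • 1) * (g - e • 1) = 0 := by
    rw [Matrix.add_mul, Matrix.mul_sub, Matrix.mul_sub, hg]
    simp [smul_smul]
  have hz' : (g - e • 1) * (g + e • 1) = 0 := by
    rw [Matrix.sub_mul, Matrix.mul_add, Matrix.mul_add, hg]
    simp [smul_smul]
    abel
  have hgl : g * (g - e • 1) = - (e • (g - e • 1)) := by
    rw [Matrix.mul_sub, hg, smul_sub]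
    simp [smul_smul]
  have hgr : (g + e • 1) * g = e • (g + e • 1) := by
    rw [Matrix.add_mul, hg, smul_add]
    simp [smul_smul]
    abel
  refine ⟨(g - e • 1) * Matrix.single j k 1 * (g + e • 1), ?_, ?_, ?_, ?_, ?_⟩
  · intro h
    have h3 := congrFun (congrFun h i) l
    rw [Matrix.mul_assoc, Matrix.mul_apply] at h3
    have h4 : ∀ m, (Matrix.single j k (1 : F) * (g + e • 1)) m l = if m = j then (g + e • 1) k l else 0 := by
      intro m
      rw [Matrix.mul_apply]
      simp only [Matrix.single_apply]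
      by_cases hm : m = j
      · subst hm
        simp
      · rw [if_neg hm]
        apply Finset.sum_eq_zero
        intro x _
        rw [if_neg (by rintro ⟨h5, -⟩; exact hm h5.symm), zero_mul]
    simp only [h4] at h3
    simp at h3
    rcases h3 with h3 | h3
    · exact hij (by simpa using h3)
    · exact hkl (by simpa using h3)
  · calc (g - e • 1) * Matrix.single j k 1 * (g + e • 1) * ((g - e • 1) * Matrix.single j k 1 * (g + e • 1))
        = (g - e • 1) * Matrix.single j k 1 * ((g + e • 1) * (g - e • 1)) * (Matrix.single j k 1 * (g + e • 1)) := by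
          simp only [Matrix.mul_assoc]
      _ = 0 := by rw [hz]; simp
  · calc g * ((g - e • 1) * Matrix.single j k 1 * (g + e • 1))
        = (g * (g - e • 1)) * Matrix.single j k 1 * (g + e • 1) := by simp only [Matrix.mul_assoc]
      _ = - ((g - e • 1) * Matrix.single j k 1 * (e • (g + e • 1))) := by
          rw [hgl]
          simp only [Matrix.neg_mul, Matrix.smul_mul, Matrix.mul_smul]
      _ = - ((g - e • 1) * Matrix.single j k 1 * (g + e • 1) * g) := by
          rw [← hgr]; simp only [Matrix.mul_assoc]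
  · rw [Matrix.trace_mul_comm, ← Matrix.mul_assoc, hz]
    simp
  · rw [Matrix.det_mul, Matrix.det_mul]
    have h5 : (g - e • 1).det * (g + e • 1).det = 0 := by
      rw [← Matrix.det_mul, hz']
      simp
    calc (g - e • 1).det * (Matrix.single j k (1 : F)).det * (g + e • 1).det
        = (Matrix.single j k (1 : F)).det * ((g - e • 1).det * (g + e • 1).det) := by ring
      _ = 0 := by rw [h5, mul_zero]

/-- an anticommuting partner of an element `s` with `s² = -1` -/
theorem exists_anti [Finite F] (h2 : (2 : F) ≠ 0) (hsq : ∀ x : F, x * x ≠ -1)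
    (s : SpecialLinearGroup (Fin 2) F) (hs : ent s 1 1 = - ent s 0 0) :
    ∃ s' : SpecialLinearGroup (Fin 2) F, ent s' 1 1 = - ent s' 0 0 ∧ s * s' = - (s' * s) := by
  classical
  have := Fintype.ofFinite F
  obtain ⟨a, ha⟩ : ∃ a, a = ent s 0 0 := ⟨_, rfl⟩
  obtain ⟨b, hb⟩ : ∃ b, b = ent s 0 1 := ⟨_, rfl⟩
  obtain ⟨c, hc⟩ : ∃ c, c = ent s 1 0 := ⟨_, rfl⟩
  have hdet := det_eq s
  rw [hs, ← ha, ← hb, ← hc] at hdet
  have hb0 : b ≠ 0 := by
    intro h
    rw [h] at hdet
    apply hsq a
    linear_combination -hdet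
  obtain ⟨u, v, huv⟩ : ∃ u v : F, u * u + v * v = -1 := by
    have hodd : Fintype.card F % 2 = 1 := by
      have h3 : ringChar F ≠ 2 := by
        intro h
        have h4 : ((2 : ℕ) : F) = 0 := by
          rw [← h]; exact ringChar.Nat.cast_ringChar
        exact h2 (by exact_mod_cast h4)
      exact FiniteField.odd_card_of_char_ne_two h3
    obtain ⟨u, v, huv⟩ := FiniteField.exists_root_sum_quadratic
      (f := (Polynomial.X ^ 2 : Polynomial F)) (g := (Polynomial.X ^ 2 + 1 : Polynomial F))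
      (by simp) (by compute_degree!) hodd
    refine ⟨u, v, ?_⟩
    simp at huv
    linear_combination huv
  refine ⟨mk (u + a * v) (b * v) (-(2 * a * u + (a * a - 1) * v) / b) (-(u + a * v)) ?_, ?_, ?_⟩
  · field_simp
    linear_combination (-1 : F) * huv
  · rfl
  · have hn : ∀ (x : SpecialLinearGroup (Fin 2) F) (i j : Fin 2), ent (-x) i j = - ent x i j :=
      fun _ _ _ => rfl
    have hz : b * (-(2 * a * u + (a * a - 1) * v) / b) = -(2 * a * u + (a * a - 1) * v) := by
      field_simp
    refine ext_ent ?_ ?_ ?_ ?_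
    all_goals
      rw [hn, ent_mul, ent_mul]
      simp only [mk_00, mk_01, mk_10, mk_11, hs, ← ha, ← hb, ← hc]
    · linear_combination hz - v * hdet
    · ring
    · ring
    · linear_combination hz - v * hdet

end Cfsg.Agent.H210.Off
end

-- part: H210/Off/PslTorus
section
/-!
# Involutory automorphisms of `PSL(2, 3^(2n+1))`
-/

set_option autoImplicit false

namespace Cfsg.Agent.H210.Off

open Matrix Cfsg.Agent.Lib.SL2Mat Cfsg.Agent.Lib.PSL2Circle Cfsg.Agent.Lib.PSL2Inv
open Cfsg.Agent.GH.L2Aut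

variable {F : Type*} [Field F]

local notation "SL2" => Matrix.SpecialLinearGroup (Fin 2) F

theorem ent_neg (x : SL2) (i j : Fin 2) : ent (-x) i j = - ent x i j := rfl

theorem comb_val {s : SL2} (hs : ent s 1 1 = - ent s 0 0) (p : Circ F) :
    (comb s hs p).1 = p.re • (1 : Matrix (Fin 2) (Fin 2) F) + p.im • s.1 := by
  ext i j
  fin_cases i <;> fin_cases j
  · change ent (comb s hs p) 0 0 = _
    rw [comb_00]
    simp [ent]
  · change ent (comb s hs p) 0 1 = _
    rw [comb_01]
    simp [ent]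
  · change ent (comb s hs p) 1 0 = _
    rw [comb_10]
    simp [ent]
  · change ent (comb s hs p) 1 1 = _
    rw [comb_11]
    have h1 : s.1 1 1 = - s.1 0 0 := hs
    simp [ent, h1]
    ring

theorem comb_inv_val {s : SL2} (hs : ent s 1 1 = - ent s 0 0) (p : Circ F) :
    ((comb s hs p)⁻¹).1 = p.re • (1 : Matrix (Fin 2) (Fin 2) F) - p.im • s.1 := by
  rw [ent_inv]
  ext i j
  fin_cases i <;> fin_cases j
  · change ent (comb s hs p) 1 1 = _
    rw [comb_11]
    simp [ent]
  · change - ent (comb s hs p) 0 1 = _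
    rw [comb_01]
    simp [ent]
  · change - ent (comb s hs p) 1 0 = _
    rw [comb_10]
    simp [ent]
  · change ent (comb s hs p) 0 0 = _
    rw [comb_00]
    have h1 : s.1 1 1 = - s.1 0 0 := hs
    simp [ent, h1]

/-- elements anticommuting with `s` invert the circle of `s` -/
theorem comb_inverted {s g : SL2} (hs : ent s 1 1 = - ent s 0 0) (hg : g * s = -(s * g)) (p : Circ F) :
    g * comb s hs p * g⁻¹ = (comb s hs p)⁻¹ := by
  rw [mul_inv_eq_iff_eq_mul]
  apply Subtype.ext
  change g.1 * (comb s hs p).1 = ((comb s hs p)⁻¹).1 * g.1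
  have h1 : g.1 * s.1 = -(s.1 * g.1) := congrArg Subtype.val hg
  rw [comb_val, comb_inv_val, Matrix.mul_add, Matrix.sub_mul, Matrix.mul_smul, Matrix.mul_smul, h1,
    Matrix.smul_mul, Matrix.smul_mul, Matrix.mul_one, Matrix.one_mul]
  simp [sub_eq_add_neg]

theorem comb_centralized {s g : SL2} (h2 : (2 : F) ≠ 0) (hs : ent s 1 1 = - ent s 0 0)
    (hg : g * s = s * g) (p : Circ F) : g * comb s hs p * g⁻¹ = comb s hs p := by
  obtain ⟨q, rfl⟩ := exists_comb h2 hs hg
  rw [comb_comm hs q p]
  simp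

theorem sq_of_tr {s : SL2} (hs : ent s 1 1 = - ent s 0 0) : s * s = -1 := by
  have hd := det_eq s
  rw [hs] at hd
  refine ext_ent ?_ ?_ ?_ ?_
  all_goals
    rw [ent_neg, ent_mul]
    simp only [hs, ent_one_00, ent_one_01, ent_one_10, ent_one_11]
  · linear_combination -hd
  · ring
  · ring
  · linear_combination -hd

theorem three_pow_mod (n : ℕ) : 3 ^ (2 * n + 1) % 8 = 3 := by
  rw [pow_add, pow_mul, pow_one, Nat.mul_mod, Nat.pow_mod]
  norm_num

/-- an odd prime divisor of `3^(2n+1) + 1` -/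
theorem exists_odd_prime {n : ℕ} (hn : 1 ≤ n) : ∃ r : ℕ, r.Prime ∧ r ≠ 2 ∧ r ∣ 3 ^ (2 * n + 1) + 1 := by
  have h1 := three_pow_mod n
  have h2 : 27 ≤ 3 ^ (2 * n + 1) := by
    calc 27 = 3 ^ 3 := by norm_num
      _ ≤ 3 ^ (2 * n + 1) := Nat.pow_le_pow_right (by norm_num) (by omega)
  obtain ⟨m, hm⟩ : ∃ m, 3 ^ (2 * n + 1) + 1 = 4 * m := ⟨(3 ^ (2 * n + 1) + 1) / 4, by omega⟩
  have hm1 : m ≠ 1 := by omega
  obtain ⟨r, hr, hrm⟩ := Nat.exists_prime_and_dvd hm1
  refine ⟨r, hr, ?_, hm ▸ Dvd.dvd.mul_left hrm 4⟩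
  rintro rfl
  omega

section main

variable {K : Type*} [Group K] (R : GH.L2Aut.Rep F K)

include R in
/-- lift of an involution -/
theorem exists_lift_inv {t : K} (ht : t * t = 1) (ht1 : t ≠ 1) :
    ∃ s : SL2, R.π s = t ∧ s * s = -1 := by
  obtain ⟨s, rfl⟩ := R.surj t
  refine ⟨s, rfl, ?_⟩
  rw [← map_mul, R.ker] at ht
  rcases ht with h | h
  · exfalso
    apply ht1
    rw [R.ker]
    exact Cfsg.Agent.Lib.PSL2Inv.sq_eq_one R.two h
  · exact h

include R in
theorem anti_of_comm {t t' : K} {s s' : SL2} (hs : R.π s = t) (hs' : R.π s' = t') (hss : s * s = -1)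
    (hss' : s' * s' = -1) (hc : t * t' = t' * t) (hne : t ≠ t') : s * s' = -(s' * s) := by
  rw [← hs, ← hs', ← map_mul, ← map_mul, R.π_eq_iff] at hc
  rcases hc with h | h
  · exfalso
    have h1 : (s * s') * (s * s') = 1 := by
      calc (s * s') * (s * s') = s * (s' * s) * s' := by simp [mul_assoc]
        _ = s * (s * s') * s' := by rw [h]
        _ = (s * s) * (s' * s') := by simp [mul_assoc]
        _ = 1 := by rw [hss, hss', neg_mul_neg, mul_one]
    have h2 : R.π (s * s') = 1 := by
      rw [R.ker]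
      exact Cfsg.Agent.Lib.PSL2Inv.sq_eq_one R.two h1
    have h3 : R.π s * R.π s = 1 := by rw [← map_mul, hss]; exact (R.ker _).2 (Or.inr rfl)
    apply hne
    rw [← hs, ← hs']
    rw [map_mul] at h2
    calc R.π s = (R.π s)⁻¹ := (inv_eq_of_mul_eq_one_left h3).symm
      _ = R.π s' := inv_eq_of_mul_eq_one_right h2
  · exact h

include R in
/-- **an element of odd order normalized by an elementary abelian 2-group and inverted by some involution** -/
theorem exists_torus [Fintype F] {n : ℕ} (hn : 1 ≤ n) (hF : Fintype.card F = 3 ^ (2 * n + 1))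
    {T : Subgroup K} (hT : ∀ t ∈ T, t * t = 1) (hT1 : T ≠ ⊥) :
    ∃ (r : ℕ) (y : K), r.Prime ∧ r ≠ 2 ∧ orderOf y = r ∧ (∀ t ∈ T, t * y * t⁻¹ = y ∨ t * y * t⁻¹ = y⁻¹) ∧
      ∃ t ∈ T, t * y * t⁻¹ = y⁻¹ := by
  classical
  have hmod := three_pow_mod n
  have hTc : ∀ a ∈ T, ∀ b ∈ T, a * b = b * a := by
    intro a ha b hb
    have h1 := hT _ (mul_mem ha hb)
    have h2 := hT a ha
    have h3 := hT b hb
    have e1 : a⁻¹ = a := inv_eq_of_mul_eq_one_left h2
    have e2 : b⁻¹ = b := inv_eq_of_mul_eq_one_left h3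
    have e3 : (a * b)⁻¹ = a * b := inv_eq_of_mul_eq_one_left h1
    rw [_root_.mul_inv_rev, e1, e2] at e3
    exact e3.symm
  have hnsq : ∀ x : F, x * x ≠ -1 := by
    intro x hx
    have h1 : IsSquare (-1 : F) := ⟨x, hx.symm⟩
    rw [FiniteField.isSquare_neg_one_iff, hF] at h1
    omega
  obtain ⟨⟨t, ht⟩, ht1'⟩ := Subgroup.ne_bot_iff_exists_ne_one.1 hT1
  have ht1 : t ≠ 1 := fun h => ht1' (Subtype.ext h)
  obtain ⟨s, hs, hss⟩ := exists_lift_inv R (hT t ht) ht1
  have hstr := tr_of_sq R.two hss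
  -- the partner
  obtain ⟨s', hs'tr, hanti, hall⟩ : ∃ s' : SL2, ent s' 1 1 = - ent s' 0 0 ∧ s * s' = -(s' * s) ∧
      ∀ u ∈ T, ∃ g : SL2, R.π g = u ∧ (g * s' = s' * g ∨ g * s' = -(s' * g)) := by
    by_cases hex : ∃ t' ∈ T, t' ≠ 1 ∧ t' ≠ t
    · obtain ⟨t', ht', ht'1, htt'⟩ := hex
      obtain ⟨s', hs', hss'⟩ := exists_lift_inv R (hT t' ht') ht'1
      refine ⟨s', tr_of_sq R.two hss', anti_of_comm R hs hs' hss hss' (hTc t ht t' ht') htt'.symm, ?_⟩
      intro u hu
      obtain ⟨g, hg⟩ := R.surj u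
      refine ⟨g, hg, ?_⟩
      have h1 := hTc u hu t' ht'
      rw [← hg, ← hs', ← map_mul, ← map_mul, R.π_eq_iff] at h1
      exact h1
    · push Not at hex
      obtain ⟨s', hs'tr, hanti⟩ := exists_anti R.two hnsq s hstr
      refine ⟨s', hs'tr, hanti, ?_⟩
      intro u hu
      by_cases hu1 : u = 1
      · exact ⟨1, by rw [map_one, hu1], Or.inl (by rw [one_mul, mul_one])⟩
      · exact ⟨s, by rw [hs, hex u hu hu1], Or.inr hanti⟩
  -- the element
  obtain ⟨r, hr, hr2, hrd⟩ := exists_odd_prime hn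
  have : Fact r.Prime := ⟨hr⟩
  have hcard : Nat.card (Subgroup.centralizer ({s'} : Set SL2)) = 3 ^ (2 * n + 1) + 1 := by
    rw [card_centralizer R.two hs'tr]
    have h3 : Nat.card F = 3 ^ (2 * n + 1) := by rw [Nat.card_eq_fintype_card, hF]
    rcases card_circ (F := F) R.two with ⟨h1, -⟩ | ⟨-, h2⟩
    · rw [h3] at h1
      omega
    · rw [h2, h3]
  have hfin : Finite (Subgroup.centralizer ({s'} : Set SL2)) :=
    Nat.finite_of_card_ne_zero (by rw [hcard]; omega)
  obtain ⟨⟨y, hyc⟩, hyo⟩ := exists_prime_orderOf_dvd_card' r (hcard ▸ hrd)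
  rw [Subgroup.orderOf_mk] at hyo
  have hyc' : y * s' = s' * y := Subgroup.mem_centralizer_singleton_iff.1 hyc
  obtain ⟨p, hp⟩ := exists_comb R.two hs'tr hyc'
  have hπy : orderOf (R.π y) = r := by
    apply orderOf_eq_prime
    · rw [← map_pow, ← hyo, pow_orderOf_eq_one, map_one]
    · intro h
      rw [R.ker] at h
      rcases h with h | h
      · rw [h, orderOf_one] at hyo
        exact hr.one_lt.ne hyo
      · have h4 : y ^ 2 = 1 := by rw [h, sq, neg_mul_neg, mul_one]
        have h5 := orderOf_dvd_of_pow_eq_one h4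
        rw [hyo] at h5
        exact hr2 ((Nat.prime_dvd_prime_iff_eq hr Nat.prime_two).1 h5)
  refine ⟨r, R.π y, hr, hr2, hπy, ?_, t, ht, ?_⟩
  · intro u hu
    obtain ⟨g, hg, h | h⟩ := hall u hu
    · left
      rw [← hg, ← map_mul, ← map_inv, ← map_mul, ← hp, comb_centralized R.two hs'tr h]
    · right
      rw [← hg, ← map_mul, ← map_inv, ← map_inv, ← map_mul, ← hp, comb_inverted hs'tr h]
  · rw [← hs, ← map_mul, ← map_inv, ← map_inv, ← map_mul, ← hp, comb_inverted hs'tr hanti]

end main

end Cfsg.Agent.H210.Off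
end

-- part: H210/Off/PslOuter
section
/-!
# Involutory automorphisms of `PSL(2, 3^(2n+1))` are inner or invert an element of order three
-/

set_option autoImplicit false

namespace Cfsg.Agent.H210.Off

open Matrix Cfsg.Agent.Lib.SL2Mat Cfsg.Agent.Lib.PSL2Circle Cfsg.Agent.Lib.PSL2Inv
open Cfsg.Agent.GH.L2Aut

variable {F : Type*} [Field F]

local notation "SL2" => Matrix.SpecialLinearGroup (Fin 2) F

theorem three_pow_ne_sq (n m : ℕ) : 3 ^ (2 * n + 1) ≠ m ^ 2 := by
  intro h
  have h1 := three_pow_mod n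
  rw [h] at h1
  have h2 : m % 8 < 8 := Nat.mod_lt _ (by norm_num)
  rw [Nat.pow_mod] at h1
  interval_cases (m % 8) <;> norm_num at h1

/-- an automorphism of a field of order `3^(2n+1)` with square `1` is trivial -/
theorem field_aut_eq_one [Fintype F] {n : ℕ} (hF : Fintype.card F = 3 ^ (2 * n + 1)) {σ : F ≃+* F}
    (hσ : σ * σ = 1) : σ = 1 := by
  obtain ⟨K, c, -, hc, h1⟩ := exists_fixed_field σ (r := 2) (n := 1) Nat.prime_two (by
    rw [pow_one, sq]; exact hσ)
  apply h1
  by_contra hc0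
  obtain ⟨d, rfl⟩ := Nat.exists_eq_succ_of_ne_zero hc0
  rw [Nat.card_eq_fintype_card, hF] at hc
  apply three_pow_ne_sq n (Nat.card K ^ 2 ^ d)
  rw [hc, ← pow_mul, ← pow_succ]

theorem isSquare_neg_of_not [Fintype F] (h4 : Fintype.card F % 4 = 3) {d : F} (hd0 : d ≠ 0)
    (hd : ¬ IsSquare d) : IsSquare (-d) := by
  classical
  have h2 : ringChar F ≠ 2 := by
    intro h
    have := FiniteField.even_card_of_char_two (F := F) h
    omega
  have h1 : ¬ IsSquare (-1 : F) := by
    rw [FiniteField.isSquare_neg_one_iff]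
    omega
  rw [← quadraticChar_one_iff_isSquare (neg_ne_zero.2 hd0)]
  have e1 : quadraticChar F (-1) = -1 := (quadraticChar_neg_one_iff_not_isSquare).2 h1
  have e2 : quadraticChar F d = -1 := (quadraticChar_neg_one_iff_not_isSquare).2 hd
  rw [← neg_one_mul, map_mul, e1, e2]
  norm_num

theorem mul_self_eq (g : Matrix (Fin 2) (Fin 2) F) :
    g * g = g.trace • g - g.det • (1 : Matrix (Fin 2) (Fin 2) F) := by
  rw [Matrix.det_fin_two, Matrix.trace_fin_two]
  ext i j
  fin_cases i <;> fin_cases j <;> simp [Matrix.mul_apply, Fin.sum_univ_two] <;> ring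

theorem inner_or_three {K : Type*} [Group K] (R : GH.L2Aut.Rep F K) [Fintype F] {n : ℕ}
    (hF : Fintype.card F = 3 ^ (2 * n + 1)) {α : MulAut K} (hα : α * α = 1) :
    α ∈ (MulAut.conj : K →* MulAut K).range ∨ ∃ x : K, orderOf x = 3 ∧ α x = x⁻¹ := by
  have hmod := three_pow_mod n
  have hfld : R.fld α = 1 := field_aut_eq_one hF (by rw [← map_mul, hα, map_one])
  obtain ⟨g, rfl⟩ := R.mem_PGL.1 (R.mem_PGL_iff_fld.2 hfld)
  by_cases hd : IsSquare g.1.det
  · exact Or.inl (R.gl_mem_inn.2 hd)
  right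
  have hd0 : g.1.det ≠ 0 := by
    intro h
    apply hd
    rw [h]
    exact ⟨0, by simp⟩
  obtain ⟨e, he⟩ := isSquare_neg_of_not (by rw [hF]; omega) hd0 hd
  obtain ⟨c, hc⟩ := R.gl_eq_one_iff.1 (show R.gl (g * g) = 1 by rw [map_mul, hα])
  have hc' : g.1 * g.1 = c • (1 : Matrix (Fin 2) (Fin 2) F) := hc
  have hsc : ∀ l : F, g.1 ≠ l • (1 : Matrix (Fin 2) (Fin 2) F) := by
    intro l hl
    apply hd
    rw [hl, Matrix.det_smul, Matrix.det_one, mul_one]
    exact ⟨l, by simp [sq]⟩
  have htr : g.1.trace = 0 := by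
    by_contra h
    have h1 := mul_self_eq g.1
    rw [hc'] at h1
    apply hsc ((g.1.trace)⁻¹ * (c + g.1.det))
    have h2 : g.1.trace • g.1 = (c + g.1.det) • (1 : Matrix (Fin 2) (Fin 2) F) := by
      rw [add_smul, h1]
      abel
    calc g.1 = (g.1.trace)⁻¹ • (g.1.trace • g.1) := by rw [smul_smul, inv_mul_cancel₀ h, one_smul]
      _ = _ := by rw [h2, smul_smul]
  have hgg : g.1 * g.1 = (e * e) • (1 : Matrix (Fin 2) (Fin 2) F) := by
    rw [mul_self_eq, htr, ← he]
    simp
  obtain ⟨N, hN0, hNN, hgN, hNt, hNd⟩ := exists_nilpotent g.1 e hgg (by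
    intro h
    exact hsc e (sub_eq_zero.1 h)) (by
    intro h
    apply hsc (-e)
    rw [neg_smul]
    exact eq_neg_of_add_eq_zero_left h)
  -- the unipotent element
  have hdet : ((1 : Matrix (Fin 2) (Fin 2) F) + N).det = 1 := by
    have h1 : N.trace = N 0 0 + N 1 1 := Matrix.trace_fin_two N
    have h2 : N.det = N 0 0 * N 1 1 - N 0 1 * N 1 0 := Matrix.det_fin_two N
    rw [Matrix.det_fin_two]
    simp
    rw [hNt] at h1
    rw [hNd] at h2
    linear_combination -h1 - h2
  let x : SL2 := ⟨1 + N, hdet⟩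
  have h3 : (3 : F) = 0 := by
    have h1 : ((3 ^ (2 * n + 1) : ℕ) : F) = 0 := by
      rw [← hF, Nat.cast_card_eq_zero]
    push_cast at h1
    exact pow_eq_zero_iff (by omega) |>.1 h1
  have hxinv : x⁻¹.1 = 1 - N := by
    have h1 : x * ⟨1 - N, by
        have h1 : N.trace = N 0 0 + N 1 1 := Matrix.trace_fin_two N
        have h2 : N.det = N 0 0 * N 1 1 - N 0 1 * N 1 0 := Matrix.det_fin_two N
        rw [Matrix.det_fin_two]
        simp
        rw [hNt] at h1
        rw [hNd] at h2
        linear_combination h1 - h2⟩ = 1 := by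
      apply Subtype.ext
      change (1 + N) * (1 - N) = 1
      have h2 : (1 + N) * (1 - N) = 1 - N * N := by noncomm_ring
      rw [h2, hNN, sub_zero]
    rw [inv_eq_of_mul_eq_one_right h1]
  have hx3 : x ^ 3 = 1 := by
    apply Subtype.ext
    change (1 + N) ^ 3 = 1
    have h2 : (1 + N) ^ 3 = 1 + N + N + N + (N * N + N * N + N * N + N * N * N) := by noncomm_ring
    rw [h2, hNN]
    simp only [Matrix.zero_mul, add_zero]
    have : (1 : Matrix (Fin 2) (Fin 2) F) + N + N + N = 1 + (3 : F) • N := by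
      have : (3 : F) • N = N + N + N := by
        rw [show (3 : F) = 1 + 1 + 1 by norm_num, add_smul, add_smul, one_smul]
      rw [this]; abel
    rw [this, h3]
    simp
  have hπ : orderOf (R.π x) = 3 := by
    have : Fact (Nat.Prime 3) := ⟨Nat.prime_three⟩
    apply orderOf_eq_prime
    · rw [← map_pow, hx3, map_one]
    · intro h
      rw [R.ker] at h
      rcases h with h | h
      · apply hN0
        have h1 : (1 : Matrix (Fin 2) (Fin 2) F) + N = 1 := congrArg Subtype.val h
        simpa using h1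
      · have h1 : (1 : Matrix (Fin 2) (Fin 2) F) + N = -1 := congrArg Subtype.val h
        have h2 : N = (-2 : F) • 1 := by
          calc N = (1 + N) - 1 := by abel
            _ = _ := by
              rw [h1, show (-2 : F) = -1 + -1 by norm_num, add_smul]
              simp
              abel
        rw [h2] at hNN
        have h4 := congrFun (congrFun hNN 0) 0
        simp at h4
        exact R.two h4
  refine ⟨R.π x, hπ, ?_⟩
  rw [R.gl_apply, ← map_inv]
  congr 1
  apply Subtype.ext
  rw [conjGL_val, hxinv]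
  change g.1 * (1 + N) * g⁻¹.1 = 1 - N
  have h5 : g.1 * (1 + N) = (1 - N) * g.1 := by
    rw [Matrix.mul_add, hgN, Matrix.sub_mul]
    simp [sub_eq_add_neg]
  rw [h5, Matrix.mul_assoc, ← Units.val_mul, mul_inv_cancel, Units.val_one, Matrix.mul_one]

end Cfsg.Agent.H210.Off
end

-- part: H210/Off/PslStep
section
/-!
# `A` acting on a central extension of `PSL(2, 3^(2n+1))`: an odd order subgroup
-/

set_option autoImplicit false
open Cfsg

namespace Cfsg.Agent.H210.Off

open Subgroup
open Cfsg.Agent.SignalizersComponents.CompBasic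

variable {G : Type*} [Group G]

theorem card_comap_of_surj {H K : Type*} [Group H] [Group K] [Finite H] (f : H →* K)
    (hf : Function.Surjective f) (L : Subgroup K) :
    Nat.card (L.comap f) = Nat.card f.ker * Nat.card L := by
  have : Finite K := Finite.of_surjective f hf
  have h1 := (L.comap f).card_mul_index
  have h2 := L.card_mul_index
  have h3 := f.ker.card_mul_index
  rw [index_comap_of_surjective _ hf] at h1
  have h4 : f.ker.index = Nat.card K := by
    rw [index_ker, MonoidHom.range_eq_top.2 hf]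
    exact Nat.card_congr Subgroup.topEquiv.toEquiv
  rw [h4, ← h2, ← h1] at h3
  have h5 : 0 < L.index := Nat.pos_of_ne_zero index_ne_zero_of_finite
  exact Nat.eq_of_mul_eq_mul_right h5 (by rw [← h3]; ring)

/-- an automorphism-like element acting trivially modulo the centre of a perfect group acts trivially -/
theorem centralizes_of_mod_center {D : Subgroup G} (hperf : Group.IsPerfect D) {a : G}
    (ha : ∀ d ∈ D, a * d * a⁻¹ ∈ D)
    (h : ∀ (d : G) (hd : d ∈ D), (⟨a * d * a⁻¹, ha d hd⟩ : D) * (⟨d, hd⟩ : D)⁻¹ ∈ center D) :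
    a ∈ centralizer (D : Set G) := by
  let f : D →* center D :=
    { toFun := fun d => ⟨_, h d d.2⟩
      map_one' := by
        apply Subtype.ext
        apply Subtype.ext
        show a * 1 * a⁻¹ * (1 : G)⁻¹ = 1
        simp
      map_mul' := by
        intro d d'
        apply Subtype.ext
        have hc := mem_center_iff.1 (h d' d'.2)
        have hc1 := congrArg Subtype.val (hc d)
        apply Subtype.ext
        show a * ((d : G) * d') * a⁻¹ * ((d : G) * d')⁻¹ =
          (a * (d : G) * a⁻¹ * (d : G)⁻¹) * (a * (d' : G) * a⁻¹ * (d' : G)⁻¹)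
        have hc2 : (d : G) * (a * (d' : G) * a⁻¹ * (d' : G)⁻¹) = (a * (d' : G) * a⁻¹ * (d' : G)⁻¹) * d := hc1
        calc a * ((d : G) * d') * a⁻¹ * ((d : G) * d')⁻¹
            = (a * d * a⁻¹) * ((a * (d' : G) * a⁻¹ * (d' : G)⁻¹) * (d : G)⁻¹) := by simp [mul_assoc]
          _ = (a * d * a⁻¹) * ((d : G)⁻¹ * (d * (a * (d' : G) * a⁻¹ * (d' : G)⁻¹)) * (d : G)⁻¹) := by
              simp [mul_assoc]
          _ = (a * d * a⁻¹) * ((d : G)⁻¹ * ((a * (d' : G) * a⁻¹ * (d' : G)⁻¹) * d) * (d : G)⁻¹) := by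
              rw [hc2]
          _ = _ := by simp [mul_assoc] }
  let _ : CommGroup (center D) :=
    { (inferInstance : Group (center D)) with
      mul_comm := fun x y => Subtype.ext (mem_center_iff.1 y.2 x) }
  rw [mem_centralizer_iff]
  intro d hd
  have h1 : f ⟨d, hd⟩ = 1 := hom_eq_one_of_perfect hperf f _
  have h2 : a * d * a⁻¹ * d⁻¹ = 1 := congrArg (fun z : center D => ((z : D) : G)) h1
  have h3 : a * d * a⁻¹ = d := by
    have := congrArg (· * d) h2
    simpa using this
  have h4 := congrArg (· * a) h3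
  simpa [mul_assoc] using h4.symm

theorem exists_odd_of_psl [Finite G] (h3 : NoInv3 G) {A D : Subgroup G} (hA : ∀ a ∈ A, a * a = 1)
    (hAD : A ≤ normalizer (D : Set G)) (hne : ¬ A ≤ centralizer (D : Set G))
    (hperf : Group.IsPerfect D) (hodd : Odd (Nat.card (center D)))
    {F : Type*} [Field F] [Fintype F] {n : ℕ} (hn : 1 ≤ n) (hF : Fintype.card F = 3 ^ (2 * n + 1))
    (e : D ⧸ center D ≃* Matrix.ProjectiveSpecialLinearGroup (Fin 2) F) :
    ∃ R : Subgroup G, R ≤ D ∧ Odd (Nat.card R) ∧ A ≤ normalizer (R : Set G) ∧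
      ¬ A ≤ centralizer (R : Set G) := by
  have hmod := three_pow_mod n
  have h2 : (2 : F) ≠ 0 := Cfsg.Agent.GH.L2Aut.two_ne_zero_of_odd (by rw [hF]; exact Odd.pow (by decide))
  let R : Cfsg.Agent.GH.L2Aut.Rep F (D ⧸ center D) := Cfsg.Agent.GH.L2Aut.Rep.ofEquiv h2 e
  obtain ⟨φ, hφ⟩ := Cfsg.Agent.StdSz.ExoticFive.quot_exists (actHom hAD) (center D) (by
    intro γ w hw
    rw [mem_center_iff] at hw ⊢
    intro g
    obtain ⟨g', rfl⟩ := (actHom hAD γ).surjective g
    rw [← map_mul, ← map_mul, hw g'])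
  have hφa : ∀ (a : A) (d : D), φ a (d : D ⧸ center D) = ((actHom hAD a d : D) : D ⧸ center D) := hφ
  have hφ2 : ∀ a : A, φ a * φ a = 1 := by
    intro a
    rw [← map_mul]
    have : a * a = 1 := Subtype.ext (hA a a.2)
    rw [this, map_one]
  -- `φ` is nontrivial
  obtain ⟨a₀, ha₀⟩ : ∃ a : A, φ a ≠ 1 := by
    by_contra hcon
    push Not at hcon
    apply hne
    intro a ha
    have haD : ∀ d ∈ D, a * d * a⁻¹ ∈ D := fun d hd => (mem_normalizer_iff.1 (hAD ha) d).1 hd
    refine centralizes_of_mod_center hperf haD ?_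
    intro d hd
    have h1 := hφa ⟨a, ha⟩ ⟨d, hd⟩
    rw [hcon, MulAut.one_apply, QuotientGroup.eq] at h1
    exact (inferInstance : (center D).Normal).mem_comm h1
  -- all `φ a` are inner
  have hinn : ∀ a : A, φ a ∈ (MulAut.conj : (D ⧸ center D) →* MulAut (D ⧸ center D)).range := by
    intro a
    rcases inner_or_three R hF (hφ2 a) with h | ⟨x, hx, hax⟩
    · exact h
    · exfalso
      obtain ⟨r, rfl⟩ := QuotientGroup.mk_surjective x
      have h1 : ((r⁻¹ * actHom hAD a r : D) : D ⧸ center D) = (r : D ⧸ center D) := by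
        have h5 : ((r⁻¹ * actHom hAD a r : D) : D ⧸ center D) =
            (r : D ⧸ center D)⁻¹ * ((actHom hAD a r : D) : D ⧸ center D) := rfl
        rw [h5, ← hφa, hax]
        have h6 : (r : D ⧸ center D) ^ 3 = 1 := by rw [← hx]; exact pow_orderOf_eq_one _
        have h7 : (r : D ⧸ center D)⁻¹ * (r : D ⧸ center D)⁻¹ = (r : D ⧸ center D) := by
          rw [← _root_.mul_inv_rev, inv_eq_iff_mul_eq_one]
          rw [← h6]
          simp [pow_succ]
        exact h7
      have h4 : 3 ∣ orderOf (r⁻¹ * actHom hAD a r : D) := by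
        have := orderOf_map_dvd (QuotientGroup.mk' (center D)) (r⁻¹ * actHom hAD a r : D)
        rw [QuotientGroup.mk'_apply, h1, hx] at this
        exact this
      have h5 : ((r⁻¹ * actHom hAD a r : D) : G) = (r : G)⁻¹ * (a * r * (a : G)⁻¹) := rfl
      rw [← Subgroup.orderOf_coe, h5] at h4
      exact h3.not_dvd' (hA a a.2) h4
  obtain ⟨κ, hκ⟩ := exists_lift_conj R.center_eq_bot φ hinn
  have hκsq : ∀ a : A, κ a * κ a = 1 := by
    intro a
    rw [← map_mul]
    have : a * a = 1 := Subtype.ext (hA a a.2)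
    rw [this, map_one]
  have hT1 : κ.range ≠ ⊥ := by
    intro h
    apply ha₀
    rw [← hκ]
    have : κ a₀ ∈ κ.range := ⟨a₀, rfl⟩
    rw [h, mem_bot] at this
    rw [this, map_one]
  obtain ⟨r, y, hr, hr2, hy, hall, t, ht, hty⟩ := exists_torus R hn hF (T := κ.range)
    (by rintro _ ⟨a, rfl⟩; exact hκsq a) hT1
  have hry : Odd r := hr.odd_of_ne_two hr2
  refine ⟨((zpowers y).comap (QuotientGroup.mk' (center D))).map D.subtype, map_subtype_le _, ?_, ?_, ?_⟩
  · rw [Subgroup.card_map_of_injective D.subtype_injective,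
      card_comap_of_surj _ (QuotientGroup.mk'_surjective _), QuotientGroup.ker_mk', Nat.card_zpowers, hy]
    exact hodd.mul hry
  · have key : ∀ a ∈ A, ∀ d ∈ ((zpowers y).comap (QuotientGroup.mk' (center D))).map D.subtype,
        a * d * a⁻¹ ∈ ((zpowers y).comap (QuotientGroup.mk' (center D))).map D.subtype := by
      rintro a ha _ ⟨d, hd, rfl⟩
      refine ⟨actHom hAD ⟨a, ha⟩ d, ?_, rfl⟩
      have h1 : ((actHom hAD ⟨a, ha⟩ d : D) : D ⧸ center D) =
          κ ⟨a, ha⟩ * (d : D ⧸ center D) * (κ ⟨a, ha⟩)⁻¹ := by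
        rw [← hφa, ← hκ, MulAut.conj_apply]
      show ((actHom hAD ⟨a, ha⟩ d : D) : D ⧸ center D) ∈ zpowers y
      rw [h1]
      have h4 : (d : D ⧸ center D) ∈ zpowers y := hd
      obtain ⟨k, hk⟩ := h4
      have hk' : y ^ k = (d : D ⧸ center D) := hk
      rw [← hk', ← conj_zpow]
      rcases hall (κ ⟨a, ha⟩) ⟨_, rfl⟩ with h | h
      · rw [h]; exact zpow_mem (mem_zpowers y) k
      · rw [h]; exact zpow_mem (inv_mem (mem_zpowers y)) k
    intro a ha
    rw [mem_normalizer_iff]
    intro d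
    constructor
    · exact key a ha d
    · intro h
      have := key a⁻¹ (inv_mem ha) _ h
      simpa [mul_assoc] using this
  · intro hcen
    obtain ⟨a, rfl⟩ := ht
    obtain ⟨d, hd⟩ := QuotientGroup.mk_surjective y
    have h1 : (d : G) ∈ ((zpowers y).comap (QuotientGroup.mk' (center D))).map D.subtype :=
      ⟨d, by
        show (d : D ⧸ center D) ∈ zpowers y
        rw [hd]; exact mem_zpowers y, rfl⟩
    have h4 := mem_centralizer_iff.1 (hcen a.2) d h1
    have h5 : actHom hAD a d = d := by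
      apply Subtype.ext
      rw [actHom_apply, ← h4]
      simp
    have h6 := hφa a d
    rw [h5, hd, ← hκ, MulAut.conj_apply, hty] at h6
    -- y⁻¹ = y
    have h7 : y ^ 2 = 1 := by
      rw [sq]
      nth_rewrite 1 [← h6]
      exact inv_mul_cancel y
    have h8 := orderOf_dvd_of_pow_eq_one h7
    rw [hy] at h8
    exact hr2 ((Nat.prime_dvd_prime_iff_eq hr Nat.prime_two).1 h8)

end Cfsg.Agent.H210.Off
end

-- part: H210/Off/Main
section
/-!
# Offenders in S₃-free groups

`G` finite with `O₂(G) = 1`, no involution of `G` inverts an element of order three, the non-abelian composition factors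
of `G` are Suzuki groups or `PSL(2, 3^odd)`; `V` a faithful elementary abelian 2-group for `G`. Then
`|A|² ≤ |V : C_V(A)|` for every elementary abelian 2-subgroup `A`.
-/

set_option autoImplicit false
open Cfsg

namespace Cfsg.Agent.H210.Off

open Subgroup
open Cfsg.Agent.OddCyclic.T1Module Cfsg.Agent.OddCyclic.FFBasic Cfsg.Agent.OddCyclic.FFRed
open Cfsg.Agent.SignalizersComponents.CompBasic
open Cfsg.Agent.SignalizersComponents.Components

universe u

variable {G : Type u} [Group G] [Finite G]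

/-- the centre of a component has odd order if `O₂ = 1` -/
theorem odd_center (hO : pCore 2 G = ⊥) {E : Subgroup G} (hE : IsComponent E) :
    Odd (Nat.card (center E)) := by
  have : Fact (Nat.Prime 2) := ⟨Nat.prime_two⟩
  by_contra hodd
  rw [Nat.not_odd_iff_even, even_iff_two_dvd] at hodd
  obtain ⟨⟨y, hy⟩, hyo⟩ := exists_prime_orderOf_dvd_card' 2 hodd
  rw [Subgroup.orderOf_mk] at hyo
  have hn : (zpowers y).Normal := by
    refine ⟨?_⟩
    rintro _ ⟨k, rfl⟩ g
    have h1 : y ^ k ∈ center E := zpow_mem hy k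
    have h2 := mem_center_iff.1 h1 g
    simp only [h2, mul_inv_cancel_right]
    exact ⟨k, rfl⟩
  have hsub : ((zpowers y).map E.subtype).IsSubnormal := (hn.isSubnormal).trans' hE.1
  have h2g : IsPGroup 2 (zpowers y) := IsPGroup.of_card (n := 1) (by rw [Nat.card_zpowers, hyo, pow_one])
  have hle := subnormal_pGroup_le_pCore hsub (h2g.map E.subtype)
  rw [hO, le_bot_iff, map_eq_bot_iff_of_injective _ E.subtype_injective, zpowers_eq_bot] at hle
  rw [hle, orderOf_one] at hyo
  norm_num at hyo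

omit [Finite G] in
theorem not_comm_of_component {E : Subgroup G} (hE : IsComponent E) : ¬ IsMulCommutative (E ⧸ center E) := by
  intro h
  obtain ⟨a, b, hab⟩ := Cfsg.Agent.OddCyclic.T1SzComp.not_comm_of_component hE
  exact hab (h.is_comm.comm a b)

theorem tic_of_component {E A : Subgroup G} (hE : IsComponent E) : TIc A E := by
  intro a _
  by_cases h : E.map (MulAut.conj a).toMonoidHom = E
  · left
    apply mem_normalizer_of_finite
    intro d hd
    rw [← h]
    exact ⟨d, hd, rfl⟩
  · right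
    intro x hx y hy
    have h1 := component_commutator_eq_bot_of_ne (isComponent_conj a hE) hE h
    rw [commutator_eq_bot_iff_le_centralizer] at h1
    exact (mem_centralizer_iff.1 (h1 ⟨x, hx, rfl⟩) y hy).symm

/-- an odd order subgroup of the component which is not central -/
theorem exists_odd_noncentral {E : Subgroup G} (hE : IsComponent E) :
    ∃ R : Subgroup G, R ≤ E ∧ Odd (Nat.card R) ∧ ¬ R ≤ centralizer (E : Set G) := by
  have hq := hE.2
  obtain ⟨r, hr, hr2, hrd⟩ : ∃ r : ℕ, r.Prime ∧ r ≠ 2 ∧ r ∣ Nat.card E := by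
    by_contra hcon
    push Not at hcon
    have : Fact (Nat.Prime 2) := ⟨Nat.prime_two⟩
    have h1 : IsPGroup 2 E := by
      rw [IsPGroup.iff_card]
      have h0 : Nat.card E ≠ 0 := Nat.card_pos.ne'
      refine ⟨_, Nat.eq_prime_pow_of_unique_prime_dvd h0 ?_⟩
      intro p hp hpd
      by_contra h2
      exact hcon p hp h2 hpd
    exact quasisimple_not_isSolvable hq (by
      have := h1.isNilpotent
      infer_instance)
  have : Fact r.Prime := ⟨hr⟩
  obtain ⟨P⟩ : Nonempty (Sylow r E) := inferInstance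
  have hP := sylow_not_le_center_of_perfect (quasisimple_isPerfect hq) r hrd P
  refine ⟨(P : Subgroup E).map E.subtype, map_subtype_le _, ?_, ?_⟩
  · rw [Subgroup.card_map_of_injective E.subtype_injective]
    obtain ⟨k, hk⟩ := (IsPGroup.iff_card).1 P.2
    rw [hk]
    exact (hr.odd_of_ne_two hr2).pow
  · intro h
    apply hP
    intro x hx
    rw [mem_center_iff]
    intro g
    apply Subtype.ext
    exact mem_centralizer_iff.1 (h ⟨x, hx, rfl⟩) g g.2

/-- the centre of a component of Suzuki type is trivial -/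
theorem center_eq_bot_of_suzuki (hO : pCore 2 G = ⊥) {E : Subgroup G} (hE : IsComponent E)
    (h : Cfsg.Lie.IsoSuzuki (E ⧸ center E)) : center E = ⊥ := by
  rw [eq_bot_iff]
  intro z hz
  rw [mem_bot]
  by_contra hz1
  obtain ⟨p, hp, hpz⟩ := Nat.exists_prime_and_dvd (fun h => hz1 (orderOf_eq_one_iff.1 h) : orderOf z ≠ 1)
  have : Fact p.Prime := ⟨hp⟩
  obtain ⟨y, hy, hyo⟩ : ∃ y ∈ center E, orderOf y = p := by
    refine ⟨z ^ (orderOf z / p), pow_mem hz _, ?_⟩
    exact orderOf_pow_orderOf_div (orderOf_pos z).ne' hpz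
  have hy1 : y ≠ 1 := by
    intro h
    rw [h, orderOf_one] at hyo
    exact hp.one_lt.ne hyo
  have hp2 : p ≠ 2 := by
    rintro rfl
    have h1 := odd_center hO hE
    have h2 := orderOf_dvd_natCard (⟨y, hy⟩ : center E)
    rw [Subgroup.orderOf_mk, hyo] at h2
    exact (Nat.not_even_iff_odd.2 h1) (even_iff_two_dvd.2 h2)
  obtain ⟨P⟩ : Nonempty (Sylow p E) := inferInstance
  -- P is abelian, being central by cyclic
  have hPm : IsMulCommutative (P : Subgroup E) := by
    have hcyc : IsCyclic ((P : Subgroup E).map (QuotientGroup.mk' (center E))) :=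
      Cfsg.Agent.OddRank.SzTits.isCyclic_of_isPGroup h hp2 _ (P.2.map _)
    let f : (P : Subgroup E) →* ((P : Subgroup E).map (QuotientGroup.mk' (center E)) : Subgroup _) :=
      (QuotientGroup.mk' (center E)).subgroupMap (P : Subgroup E)
    have hf : f.ker ≤ center (P : Subgroup E) := by
      intro x hx
      rw [MonoidHom.mem_ker] at hx
      have h1 : ((x : E) : E ⧸ center E) = 1 := congrArg Subtype.val hx
      rw [QuotientGroup.eq_one_iff, mem_center_iff] at h1
      rw [mem_center_iff]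
      intro g
      exact Subtype.ext (h1 g)
    exact MonoidHom.isMulCommutative_of_isCyclic_of_ker_le_center f hf
  exact hy1 (Cfsg.Agent.OddCyclic.T1SzComp.eq_one_of_center hE.2.1 P hPm hy
    (n := 1) (by rw [pow_one, ← hyo]; exact pow_orderOf_eq_one y))

theorem main {V : Type*} [CommGroup V] [Finite V] {ρ : G →* MulAut V} (hρ : Function.Injective ρ)
    (hV : ∀ v : V, v * v = 1) (hO : pCore 2 G = ⊥) (h3 : NoInv3 G)
    (hK : Cfsg.IsCompositionKGroupWith Cfsg.IsSuzukiOrPSL2OddPowerThree G) :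
    ∀ (k : ℕ) (A : Subgroup G), Nat.card A = k → (∀ a ∈ A, a * a = 1) → Nat.card A ^ 2 ≤ (CS ρ A).index := by
  intro k
  induction k using Nat.strong_induction_on with
  | _ k ih =>
    intro A hk hA
    have hind : ∀ B < A, Nat.card B ^ 2 ≤ (CS ρ B).index := by
      intro B hB
      refine ih (Nat.card B) ?_ B rfl (fun b hb => hA b (hB.le hb))
      rw [← hk]
      rcases lt_or_eq_of_le (Subgroup.card_le_of_le hB.le) with h | h
      · exact h
      · exact absurd (Subgroup.eq_of_le_of_card_ge hB.le h.ge) hB.ne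
    have hodd : ∀ R : Subgroup G, Odd (Nat.card R) → A ≤ normalizer (R : Set G) →
        (¬ A ≤ centralizer (R : Set G)) → Nat.card A ^ 2 ≤ (CS ρ A).index := by
      intro R h1 h2 h4
      obtain ⟨B, hBA, hBi, hB4⟩ := step_odd hρ hV h3 hA h1 h2 h4
      refine card_sq_le hBA (hind B (lt_of_le_of_ne hBA ?_)) (by rw [hBi]; exact hB4)
      rintro rfl
      rw [relIndex_self] at hBi
      norm_num at hBi
    by_cases hA1 : A = ⊥
    · rw [hA1, Subgroup.card_bot, one_pow]
      exact Nat.one_le_iff_ne_zero.2 index_ne_zero_of_finite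
    by_cases hF : A ≤ centralizer (fittingSubgroup G : Set G)
    swap
    · have hn : (fittingSubgroup G).Normal := Cfsg.Agent.Lib.Cores.fittingSubgroup_normal
      exact hodd _ (Cfsg.Agent.LieExceptional.CITSylow.odd_card_fitting hO)
        (by rw [Subgroup.normalizer_eq_top]; exact le_top) hF
    -- a component not centralized by `A`
    obtain ⟨E, hE, hAE⟩ : ∃ E : Subgroup G, IsComponent E ∧ ¬ A ≤ centralizer (E : Set G) := by
      by_contra hcon
      push Not at hcon
      apply hA1
      have h1 : layer G ≤ centralizer (A : Set G) := by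
        rw [layer_le_iff]
        intro K hK
        rw [Subgroup.le_centralizer_iff]
        exact hcon K hK
      have h2 : generalizedFittingSubgroup G ≤ centralizer (A : Set G) := by
        rw [Cfsg.Agent.Lib.GenFitting.genFitting_def]
        refine sup_le h1 ?_
        rw [Subgroup.le_centralizer_iff]
        exact hF
      rw [Subgroup.le_centralizer_iff] at h2
      have h4 := h2.trans Cfsg.Agent.TwoFusion.FStarControl.centralizer_genFitting_le_fitting
      have h5 := Cfsg.Agent.LieExceptional.CITSylow.odd_card_fitting hO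
      rw [eq_bot_iff]
      intro a ha
      rw [mem_bot]
      have h6 := orderOf_dvd_natCard (⟨a, h4 ha⟩ : fittingSubgroup G)
      rw [Subgroup.orderOf_mk] at h6
      have h7 : orderOf a ∣ 2 := orderOf_dvd_of_pow_eq_one (by rw [sq]; exact hA a ha)
      rcases (Nat.dvd_prime Nat.prime_two).1 h7 with h8 | h8
      · exact orderOf_eq_one_iff.1 h8
      · exfalso
        rw [h8] at h6
        exact (Nat.not_even_iff_odd.2 h5) (even_iff_two_dvd.2 h6)
    have hTI : TIc A E := tic_of_component hE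
    by_cases hN : A ⊓ normalizer (E : Set G) ≤ centralizer (E : Set G)
    · -- `N_A(E)` centralizes `E`, hence `A` does not normalize `E`
      obtain ⟨R₀, hR₀E, hR₀o, hR₀c⟩ := exists_odd_noncentral hE
      obtain ⟨R, h1, h2, h4⟩ := exists_odd_of_perm hA hTI hR₀E hR₀o
        (hN.trans ((Subgroup.centralizer_le hR₀E).trans (Subgroup.centralizer_le_normalizer _)))
        (Or.inr ⟨fun h => hAE (fun a ha => hN ⟨ha, h ha⟩), hR₀c⟩)
      exact hodd R h1 h2 h4
    · have hsimp : IsSimpleGroup (E ⧸ center E) := hE.2.2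
      rcases hK E hE.1 (center E) hsimp (not_comm_of_component hE) with hs | ⟨F, iF, iF', n, hn, ⟨e⟩⟩
      · -- Suzuki groups
        have hz := center_eq_bot_of_suzuki hO hE hs
        have hsE : Cfsg.Lie.IsoSuzuki E := Cfsg.Agent.ThreePrime.ACFacts.isoSuzuki_of_equiv
          ((QuotientGroup.quotientMulEquivOfEq hz).trans QuotientGroup.quotientBot).symm hs
        exact step_sz_perm hρ hV hA hind _ E rfl hsE hTI hN
      · -- `PSL(2, 3^odd)`
        have hn1 : 1 ≤ n := by
          by_contra hn0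
          have hn0' : n = 0 := by omega
          subst hn0'
          have hc := Cfsg.Agent.ClassicalGeometry.PSL2Basic.card_PSL2_odd (F := F)
            (by rw [hn]; decide)
          rw [hn, ← Nat.card_congr e.toEquiv] at hc
          have h12 := (Cfsg.Agent.Involutions.IndexFive.card_not_small (G := E ⧸ center E) (by
            intro h
            exact not_comm_of_component hE ⟨⟨h⟩⟩)).2.2.2
          apply h12
          norm_num at hc
          omega
        obtain ⟨R, hRE, h1, h2, h4⟩ := exists_odd_of_psl h3 (A := A ⊓ normalizer (E : Set G))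
          (D := E) (fun a ha => hA a ha.1) inf_le_right hN hE.2.1 (odd_center hO hE) hn1 hn e
        obtain ⟨R', h1', h2', h4'⟩ := exists_odd_of_perm hA hTI hRE h1 h2 (Or.inl h4)
        exact hodd R' h1' h2' h4'

end Cfsg.Agent.H210.Off
end

-- part: H210/Off/Dual
section
/-!
# Commutators of offenders: duality
-/

set_option autoImplicit false
open Cfsg

namespace Cfsg.Agent.H210.Off

open Subgroup
open Cfsg.Agent.OddCyclic.T1Module Cfsg.Agent.OddCyclic.FFBasic Cfsg.Agent.OddCyclic.FFRed

universe u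

/-- The action on the complex characters. -/
def dualC {X : Type*} [Group X] {V : Type*} [CommGroup V] (φ : X →* MulAut V) :
    X →* MulAut (V →* ℂˣ) where
  toFun x :=
    { toFun := fun f => f.comp (φ x⁻¹).toMonoidHom
      invFun := fun f => f.comp (φ x).toMonoidHom
      left_inv := fun f => by
        ext1 v
        show f (φ x⁻¹ (φ x v)) = f v
        rw [← MulAut.mul_apply, ← map_mul, inv_mul_cancel, map_one, MulAut.one_apply]
      right_inv := fun f => by
        ext1 v
        show f (φ x (φ x⁻¹ v)) = f v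
        rw [← MulAut.mul_apply, ← map_mul, mul_inv_cancel, map_one, MulAut.one_apply]
      map_mul' := fun f f' => rfl }
  map_one' := by
    ext1 f
    ext1 v
    show f (φ (1 : X)⁻¹ v) = f v
    rw [inv_one, map_one, MulAut.one_apply]
  map_mul' := by
    intro x y
    ext1 f
    ext1 v
    show f (φ (x * y)⁻¹ v) = f (φ y⁻¹ (φ x⁻¹ v))
    rw [mul_inv_rev, map_mul, MulAut.mul_apply]

theorem dualC_apply {X : Type*} [Group X] {V : Type*} [CommGroup V] (φ : X →* MulAut V) (x : X)
    (f : V →* ℂˣ) (v : V) : dualC φ x f v = f (φ x⁻¹ v) := rfl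

theorem main_comm {G : Type u} [Group G] [Finite G] {V : Type*} [CommGroup V] [Finite V]
    {ρ : G →* MulAut V} (hρ : Function.Injective ρ)
    (hV : ∀ v : V, v * v = 1) (hO : pCore 2 G = ⊥) (h3 : NoInv3 G)
    (hK : Cfsg.IsCompositionKGroupWith Cfsg.IsSuzukiOrPSL2OddPowerThree G)
    (A : Subgroup G) (hA : ∀ a ∈ A, a * a = 1) (U : Subgroup V)
    (hU : ∀ a ∈ A, ∀ v, ρ a v * v⁻¹ ∈ U) : Nat.card A ^ 2 ≤ Nat.card U := by
  have hfin : Finite (V →* ℂˣ) := by
    apply Nat.finite_of_card_ne_zero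
    rw [CommGroup.card_monoidHom_of_hasEnoughRootsOfUnity]
    exact Nat.card_pos.ne'
  have hinj : Function.Injective (dualC ρ) := by
    rw [← MonoidHom.ker_eq_bot_iff, eq_bot_iff]
    intro g hg
    rw [MonoidHom.mem_ker] at hg
    rw [mem_bot]
    have h1 : g⁻¹ = 1 := by
      apply hρ
      rw [map_one]
      ext v
      rw [MulAut.one_apply]
      refine (CommGroup.forall_apply_eq_apply_iff V (M := ℂ)).1 (fun f => ?_)
      rw [← dualC_apply, hg, MulAut.one_apply]
    exact inv_eq_one.1 h1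
  have h1 := main (V := V →* ℂˣ) (ρ := dualC ρ) hinj (fun f => by
    ext1 v
    rw [MonoidHom.mul_apply, ← map_mul, hV, map_one, MonoidHom.one_apply]) hO h3 hK _ A rfl hA
  refine h1.trans ?_
  -- the annihilator of `U`
  have h2 : (MonoidHom.domRestrictHom U ℂˣ).ker ≤ CS (V := V →* ℂˣ) (dualC ρ) A := by
    intro f hf a ha
    rw [MonoidHom.mem_ker] at hf
    ext1 v
    rw [dualC_apply]
    have h4 := hU a⁻¹ (inv_mem ha) v
    have h5 : f (ρ a⁻¹ v * v⁻¹) = 1 := by
      have := DFunLike.congr_fun hf (⟨_, h4⟩ : U)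
      exact this
    rw [map_mul, map_inv f, mul_inv_eq_one] at h5
    exact h5
  have h4 := CommGroup.card_domRestrictHom_ker (G := V) (M := ℂ) U
  have h5 := Subgroup.card_le_of_le h2
  rw [h4] at h5
  have h6 := (CS (V := V →* ℂˣ) (dualC ρ) A).card_mul_index
  rw [CommGroup.card_monoidHom_of_hasEnoughRootsOfUnity] at h6
  have h7 := U.card_mul_index
  rw [← h7] at h6
  have h8 : U.index ≤ Nat.card (CS (V := V →* ℂˣ) (dualC ρ) A) := h5
  have h9 : 0 < U.index := Nat.pos_of_ne_zero index_ne_zero_of_finite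
  by_contra hcon
  push Not at hcon
  have : Nat.card U * U.index < Nat.card (CS (V := V →* ℂˣ) (dualC ρ) A) * (CS (V := V →* ℂˣ) (dualC ρ) A).index := by
    calc Nat.card U * U.index < (CS (V := V →* ℂˣ) (dualC ρ) A).index * U.index := Nat.mul_lt_mul_of_pos_right hcon h9
      _ ≤ (CS (V := V →* ℂˣ) (dualC ρ) A).index * Nat.card (CS (V := V →* ℂˣ) (dualC ρ) A) := Nat.mul_le_mul_left _ h8
      _ = _ := mul_comm _ _
  omega

end Cfsg.Agent.H210.Off
end
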