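import Cfsg.Prelude.Def_LocalEven
import Cfsg.Agent.OddCyclic.FFRed
import Cfsg.Agent.Lib.CoprimeHyperplane
import Cfsg.Agent.SporadicB.DihedralLift
import Cfsg.Agent.Lib.Involves
import Cfsg.Agent.OddCyclic.ClaimC.Sz
import Cfsg.Agent.OddCyclic.CaseESz
set_option linter.all false

-- part: H210/Off/Base
section
/-!
# S₃-free groups: elementary abelian 2-subgroups acting on odd order subgroups

`ρ : G →* MulAut V` faithful, `V` an elementary abelian 2-group, no involution of `G` inverts an element of order 3.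
If the elementary abelian 2-subgroup `A` acts nontrivially on an odd order subgroup `R` then
`|C_V(B) : C_V(A)| ≥ 4` for some hyperplane `B` of `A`.
-/

set_option autoImplicit false
open Cfsg

namespace Cfsg.Agent.H210.Off

open Subgroup
open Cfsg.Agent.OddCyclic.T1Module Cfsg.Agent.OddCyclic.FFBasic Cfsg.Agent.OddCyclic.FFRed

variable {G : Type*} [Group G]

/-- no involution of `G` inverts an element of order 3 -/
def NoInv3 (G : Type*) [Group G] : Prop :=
  ∀ a y : G, a * a = 1 → orderOf y = 3 → a * y * a⁻¹ ≠ y⁻¹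

theorem involves_perm_three {a y : G} (ha : a * a = 1) (hy : orderOf y = 3) (h : a * y * a⁻¹ = y⁻¹) :
    Cfsg.Involves (Equiv.Perm (Fin 3)) G := by
  have hy1 : y ≠ 1 := by rintro rfl; simp at hy
  have ha1 : a ≠ 1 := by
    rintro rfl
    have h2 : y * y = 1 := by
      have : y = y⁻¹ := by simpa using h
      calc y * y = y * y⁻¹ := by rw [← this]
        _ = 1 := mul_inv_cancel y
    have := orderOf_dvd_of_pow_eq_one (show y ^ 2 = 1 by rw [sq]; exact h2)
    rw [hy] at this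
    norm_num at this
  have hinv : a⁻¹ = a := inv_eq_of_mul_eq_one_left ha
  have hay : (a * y) * (a * y) = 1 := by
    rw [hinv] at h
    calc (a * y) * (a * y) = (a * y * a) * y := by simp [mul_assoc]
      _ = y⁻¹ * y := by rw [h]
      _ = 1 := inv_mul_cancel y
  have hay1 : a * y ≠ 1 := by
    intro h1
    have h2 : y = a := by
      calc y = a⁻¹ * (a * y) := by simp
        _ = a := by rw [h1, mul_one, hinv]
    have := orderOf_dvd_of_pow_eq_one (show y ^ 2 = 1 by rw [sq, h2]; exact ha)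
    rw [hy] at this
    norm_num at this
  have h2a : orderOf a = 2 := orderOf_eq_prime (by rw [sq]; exact ha) ha1
  have h2b : orderOf (a * y) = 2 := orderOf_eq_prime (by rw [sq]; exact hay) hay1
  obtain ⟨e⟩ := Cfsg.Agent.SporadicB.DihedralLift.closure_pair_equiv_dihedral' (n := 3) h2a h2b (by
    rw [← mul_assoc, ha, one_mul]; exact hy)
  obtain ⟨e'⟩ := Cfsg.Agent.SporadicB.DihedralLift.dihedral_three_equiv_perm
  have h3 : Cfsg.Agent.Lib.Involves.Involves G (Equiv.Perm (Fin 3)) :=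
    Cfsg.Agent.Lib.Involves.of_injective
      ((closure ({a, a * y} : Set G)).subtype.comp (e.trans e').symm.toMonoidHom)
      ((Subgroup.subtype_injective _).comp (e.trans e').symm.injective)
  exact Cfsg.Agent.Lib.Involves.involves_iff.1 h3

theorem noInv3_of (h : ¬ Cfsg.Involves (Equiv.Perm (Fin 3)) G) : NoInv3 G :=
  fun _ _ ha hy hay => h (involves_perm_three ha hy hay)

/-- `r⁻¹ r^a` has order prime to 3 -/
theorem NoInv3.not_dvd (h : NoInv3 G) {a r : G} (ha : a * a = 1) : ¬ 3 ∣ orderOf (r⁻¹ * (a * r * a⁻¹)) ∨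
    orderOf (r⁻¹ * (a * r * a⁻¹)) = 0 := by
  by_cases h0 : orderOf (r⁻¹ * (a * r * a⁻¹)) = 0
  · exact Or.inr h0
  left
  intro h3
  have hinv : a⁻¹ = a := inv_eq_of_mul_eq_one_left ha
  have h1 : a * (r⁻¹ * (a * r * a⁻¹)) * a⁻¹ = (r⁻¹ * (a * r * a⁻¹))⁻¹ := by
    have : a * (r⁻¹ * (a * r * a⁻¹)) * a⁻¹ = (a * r * a⁻¹)⁻¹ * ((a * a) * r * (a * a)⁻¹) := by
      simp [mul_assoc]
    rw [this, ha]
    simp [mul_assoc]
  refine h a ((r⁻¹ * (a * r * a⁻¹)) ^ (orderOf (r⁻¹ * (a * r * a⁻¹)) / 3)) ha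
    (orderOf_pow_orderOf_div h0 h3) ?_
  rw [← conj_pow, h1, inv_pow]

theorem NoInv3.not_dvd' [Finite G] (h : NoInv3 G) {a r : G} (ha : a * a = 1) :
    ¬ 3 ∣ orderOf (r⁻¹ * (a * r * a⁻¹)) := by
  rcases h.not_dvd (r := r) ha with h1 | h1
  · exact h1
  · exact absurd h1 (orderOf_pos _).ne'

theorem inverted_aux {a r : G} (ha : a * a = 1) :
    a * (r⁻¹ * (a * r * a⁻¹)) * a⁻¹ = (r⁻¹ * (a * r * a⁻¹))⁻¹ := by
  have : a * (r⁻¹ * (a * r * a⁻¹)) * a⁻¹ = (a * r * a⁻¹)⁻¹ * ((a * a) * r * (a * a)⁻¹) := by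
    simp [mul_assoc]
  rw [this, ha]
  simp [mul_assoc]

variable {V : Type*} [CommGroup V]

/-- the basic bound: an involution inverting an element of odd order (prime to 3) acting nontrivially -/
theorem four_le_index [Finite V] (ρ : G →* MulAut V) (hV : ∀ v : V, v * v = 1)
    {a y : G} {r : ℕ} (hr : r.Prime) (hr2 : r ≠ 2) (hr3 : r ≠ 3) (hy : orderOf y = r)
    (h : a * y * a⁻¹ = y⁻¹) (hne : ∃ v, ρ y v ≠ v) : 4 ≤ (fx ρ a).index := by
  have h1 := half' ρ (hy ▸ hr.odd_of_ne_two hr2) h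
  obtain ⟨d, hd0, hd, hrd⟩ := prim (ρ := ρ) hV hr hr2 hy hne
  obtain ⟨e, he⟩ := index_pow hV (fx ρ a)
  have hr5 : 5 ≤ r := by
    have h2 := hr.two_le
    have h4 : r ≠ 4 := by rintro rfl; norm_num at hr
    omega
  have h2d : 0 < 2 ^ d - 1 := by
    have : 2 ^ 1 ≤ 2 ^ d := Nat.pow_le_pow_right (by norm_num) hd0
    omega
  have h2 := Nat.le_of_dvd h2d hrd
  rw [hd, he] at h1
  rw [he]
  by_contra hcon
  have he1 : e ≤ 1 := by
    by_contra h3
    have : 2 ^ 2 ≤ 2 ^ e := Nat.pow_le_pow_right (by norm_num) (by omega)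
    omega
  have h3 : (2 ^ e) ^ 2 ≤ 4 := by
    interval_cases e <;> norm_num
  omega

/-- the action on the fixed points of `B` -/
theorem CS_stable' {ρ : G →* MulAut V} {B : Subgroup G} :
    ∀ n ∈ centralizer (B : Set G), ∀ w ∈ CS ρ B, ρ n w ∈ CS ρ B :=
  fun _ hn _ hw => CS_stable (Subgroup.centralizer_le_normalizer _ hn) hw

theorem isPGroup_of_sq {A : Subgroup G} (hA : ∀ a ∈ A, a * a = 1) : IsPGroup 2 A := by
  intro a
  refine ⟨1, ?_⟩
  apply Subtype.ext
  rw [pow_one, sq]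
  exact hA a a.2

theorem isElementaryAbelian_of_sq {A : Subgroup G} (hA : ∀ a ∈ A, a * a = 1) :
    Cfsg.IsElementaryAbelian 2 A :=
  ⟨⟨⟨fun a b => Subtype.ext (comm_of_sq hA a.2 b.2)⟩⟩, fun a ha => by rw [sq]; exact hA a ha⟩

/-- the inequality on `C_V(B)` for an element `y` of `C(B)` inverted by `a ∈ A` -/
theorem four_le_relIndex [Finite V] {ρ : G →* MulAut V} (hρ : Function.Injective ρ)
    (hV : ∀ v : V, v * v = 1) {A B : Subgroup G} (hA : ∀ a ∈ A, a * a = 1) (hBA : B ≤ A)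
    {a y : G} (ha : a ∈ A) {r : ℕ} (hr : r.Prime) (hr2 : r ≠ 2) (hr3 : r ≠ 3) (hy : orderOf y = r)
    (hyB : y ∈ centralizer (B : Set G)) (h : a * y * a⁻¹ = y⁻¹) :
    4 ≤ (CS ρ A).relIndex (CS ρ B) := by
  have haB : a ∈ centralizer (B : Set G) := by
    rw [mem_centralizer_iff]
    intro b hb
    exact comm_of_sq hA (hBA hb) ha
  have hy1 : y ≠ 1 := by
    rintro rfl
    rw [orderOf_one] at hy
    exact hr.one_lt.ne hy
  have hyodd : Odd (orderOf y) := hy ▸ hr.odd_of_ne_two hr2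
  obtain ⟨v, hv, hyv⟩ := axb (ρ := ρ) hV (isPGroup_of_sq (fun b hb => hA b (hBA hb))) hyodd
    (fun b hb => mem_centralizer_iff.1 hyB b hb) (by
      by_contra hcon
      push Not at hcon
      apply hy1
      apply hρ
      rw [map_one]
      ext v
      exact hcon v)
  let ρ' := res ρ (centralizer (B : Set G)) (CS ρ B) CS_stable'
  have h1 := four_le_index ρ' (fun v => Subtype.ext (hV v)) hr hr2 hr3
    (a := ⟨a, haB⟩) (y := ⟨y, hyB⟩) (by rw [← hy]; exact Subgroup.orderOf_mk y hyB)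
    (Subtype.ext h) ⟨⟨v, hv⟩, fun h2 => hyv (by
      have := congrArg Subtype.val h2
      rwa [res_apply] at this)⟩
  rw [fx_res] at h1
  refine h1.trans ?_
  refine Subgroup.relIndex_le_of_le_left (L := CS ρ B) ?_ ?_
  · intro w hw
    exact hw a ha
  · exact Subgroup.index_ne_zero_of_finite

/-- **Odd order step** -/
theorem step_odd [Finite G] [Finite V] {ρ : G →* MulAut V} (hρ : Function.Injective ρ)
    (hV : ∀ v : V, v * v = 1) (h3 : NoInv3 G) {A R : Subgroup G} (hA : ∀ a ∈ A, a * a = 1)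
    (hR : Odd (Nat.card R)) (hAR : A ≤ normalizer (R : Set G)) (hne : ¬ A ≤ centralizer (R : Set G)) :
    ∃ B ≤ A, B.relIndex A = 2 ∧ 4 ≤ (CS ρ A).relIndex (CS ρ B) := by
  have hA1 : A ≠ ⊥ := by
    rintro rfl
    exact hne bot_le
  have hsup := Cfsg.Agent.Lib.CoprimeHyperplane.iSup_centralizer_hyperplane (p := 2)
    (isElementaryAbelian_of_sq hA) hA1 (fun h => (Nat.not_even_iff_odd.2 hR) (even_iff_two_dvd.2 h)) hAR
  obtain ⟨B, hB⟩ : ∃ B : {B : Subgroup G // B ≤ A ∧ B.relIndex A = 2},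
      ¬ R ⊓ centralizer ((B : Subgroup G) : Set G) ≤ centralizer (A : Set G) := by
    by_contra hcon
    push Not at hcon
    apply hne
    rw [Subgroup.le_centralizer_iff, ← hsup]
    exact iSup_le hcon
  obtain ⟨B, hBA, hBi⟩ := B
  obtain ⟨y, hy, hyA⟩ := SetLike.not_le_iff_exists.1 hB
  rw [mem_centralizer_iff] at hyA
  push Not at hyA
  obtain ⟨a, ha, hay⟩ := hyA
  have haa := hA a ha
  have haB : a ∈ centralizer (B : Set G) := by
    rw [mem_centralizer_iff]
    intro b hb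
    exact comm_of_sq hA (hBA hb) ha
  obtain ⟨x, hx⟩ : ∃ x, x = y⁻¹ * (a * y * a⁻¹) := ⟨_, rfl⟩
  have hx1 : x ≠ 1 := by
    intro h
    apply hay
    rw [h] at hx
    have h2 : y = a * y * a⁻¹ := by
      have := congrArg (y * ·) hx
      simpa using this
    have h3 := congrArg (· * a) h2
    simpa [mul_assoc] using h3.symm
  have hxR : x ∈ R := by
    rw [hx]
    exact mul_mem (inv_mem hy.1) ((mem_normalizer_iff.1 (hAR ha) y).1 hy.1)
  have hyB : y ∈ centralizer (B : Set G) := hy.2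
  have hxB : x ∈ centralizer (B : Set G) := by
    rw [hx]
    exact mul_mem (inv_mem hyB) (mul_mem (mul_mem haB hyB) (inv_mem haB))
  have hxinv : a * x * a⁻¹ = x⁻¹ := by rw [hx]; exact inverted_aux haa
  have hxo : Odd (orderOf x) := by
    have := orderOf_dvd_natCard (⟨x, hxR⟩ : R)
    rw [Subgroup.orderOf_mk] at this
    exact hR.of_dvd_nat this
  have hxne : orderOf x ≠ 1 := fun h => hx1 (orderOf_eq_one_iff.1 h)
  obtain ⟨r, hr, hrx⟩ := Nat.exists_prime_and_dvd hxne
  have hr2 : r ≠ 2 := by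
    rintro rfl
    exact (Nat.not_even_iff_odd.2 hxo) (even_iff_two_dvd.2 hrx)
  have hr3 : r ≠ 3 := by
    rintro rfl
    rw [hx] at hrx
    exact h3.not_dvd' haa hrx
  refine ⟨B, hBA, hBi, ?_⟩
  refine four_le_relIndex hρ hV hA hBA ha hr hr2 hr3
    (y := x ^ (orderOf x / r)) (orderOf_pow_orderOf_div (orderOf_pos x).ne' hrx) (pow_mem hxB _) ?_
  rw [← conj_pow, hxinv, inv_pow]

end Cfsg.Agent.H210.Off
end

-- part: H210/Off/Suz
section
/-!
# The step for a normalized Suzuki subgroup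
-/

set_option autoImplicit false
open Cfsg

namespace Cfsg.Agent.H210.Off

open Subgroup
open Cfsg.Agent.OddCyclic.T1Module Cfsg.Agent.OddCyclic.FFBasic Cfsg.Agent.OddCyclic.FFRed

/-- a group of inner automorphisms lifts -/
theorem exists_lift_conj {A K : Type*} [Group A] [Group K] (hz : center K = ⊥) (φ : A →* MulAut K)
    (h : ∀ a, φ a ∈ (MulAut.conj : K →* MulAut K).range) :
    ∃ κ : A →* K, ∀ a, MulAut.conj (κ a) = φ a := by
  have hinj : Function.Injective (MulAut.conj : K →* MulAut K) := by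
    rw [← MonoidHom.ker_eq_bot_iff, eq_bot_iff]
    intro k hk
    rw [MonoidHom.mem_ker] at hk
    rw [← hz, mem_center_iff]
    intro g
    have h1 : k * g * k⁻¹ = g := by
      have := congrArg (fun e => e g) hk
      simpa using this
    have h2 := congrArg (· * k) h1
    simpa [mul_assoc] using h2.symm
  let e := MonoidHom.ofInjective hinj
  refine ⟨e.symm.toMonoidHom.comp (φ.codRestrict _ h), fun a => ?_⟩
  have h1 : e (e.symm (φ.codRestrict _ h a)) = φ.codRestrict _ h a := e.apply_symm_apply _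
  have h2 := congrArg Subtype.val h1
  exact h2

variable {G : Type*} [Group G]

/-- conjugation of `A` on the normalized subgroup `D` -/
noncomputable def actHom {A D : Subgroup G} (hAD : A ≤ normalizer (D : Set G)) : A →* MulAut D :=
  (D.normalizerMonoidHom).comp (inclusion hAD)

theorem actHom_apply {A D : Subgroup G} (hAD : A ≤ normalizer (D : Set G)) (a : A) (d : D) :
    ((actHom hAD a d : D) : G) = a * d * (a : G)⁻¹ := rfl

theorem actHom_ker {A D : Subgroup G} (hAD : A ≤ normalizer (D : Set G)) :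
    (actHom hAD).ker = (A ⊓ centralizer (D : Set G)).subgroupOf A := by
  ext a
  rw [MonoidHom.mem_ker, mem_subgroupOf, mem_inf]
  constructor
  · intro h
    refine ⟨a.2, ?_⟩
    rw [mem_centralizer_iff]
    intro d hd
    have h1 : (a : G) * d * (a : G)⁻¹ = d := by
      have := congrArg (fun e : MulAut D => ((e ⟨d, hd⟩ : D) : G)) h
      exact this
    have h2 := congrArg (· * (a : G)) h1
    simpa [mul_assoc] using h2.symm
  · rintro ⟨-, h⟩
    ext d
    rw [actHom_apply]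
    have := mem_centralizer_iff.1 h d d.2
    rw [← this]
    simp

theorem step_sz [Finite G] {V : Type*} [CommGroup V] [Finite V] {ρ : G →* MulAut V}
    (hρ : Function.Injective ρ) (hV : ∀ v : V, v * v = 1) {A D : Subgroup G}
    (hA : ∀ a ∈ A, a * a = 1) (hD : Cfsg.Lie.IsoSuzuki D) (hAD : A ≤ normalizer (D : Set G)) :
    ((A ⊓ centralizer (D : Set G)).relIndex A) ^ 2 ≤
      (CS ρ A).relIndex (CS ρ (A ⊓ centralizer (D : Set G))) := by
  obtain ⟨B, hB⟩ : ∃ B, B = A ⊓ centralizer (D : Set G) := ⟨_, rfl⟩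
  rw [← hB]
  have hBA : B ≤ A := hB ▸ inf_le_left
  have hBD : B ≤ centralizer (D : Set G) := hB ▸ inf_le_right
  by_cases hBA' : B = A
  · rw [hBA', relIndex_self, relIndex_self]
    norm_num
  have hAN : A ≤ centralizer (B : Set G) := by
    intro a ha
    rw [mem_centralizer_iff]
    intro b hb
    exact comm_of_sq hA (hBA hb) ha
  have hDN : D ≤ centralizer (B : Set G) := by
    rw [Subgroup.le_centralizer_iff]
    exact hBD
  -- the inner automorphisms
  have hz : center D = ⊥ := by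
    have h1 := Cfsg.Agent.OddCyclic.CaseESz.inf_centralizer hD
    rw [eq_bot_iff]
    intro z hz
    rw [mem_center_iff] at hz
    have h2 : (z : G) ∈ D ⊓ centralizer (D : Set G) := by
      refine ⟨z.2, ?_⟩
      show (z : G) ∈ centralizer (D : Set G)
      rw [mem_centralizer_iff]
      intro d hd
      exact congrArg Subtype.val (hz ⟨d, hd⟩)
    rw [h1, mem_bot] at h2
    rw [mem_bot]
    exact Subtype.ext h2
  obtain ⟨κ, hκ⟩ := exists_lift_conj hz (actHom hAD) (by
    intro a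
    have h1 := Cfsg.Agent.OddCyclic.CaseESz.inner hD (hAD a.2) ⟨1, by rw [pow_one, sq]; exact hA a a.2⟩
    rw [Cfsg.Agent.OddCyclic.CaseESz.mem_sup_iff] at h1
    obtain ⟨k, hk, c, hc, hac⟩ := h1
    refine ⟨⟨k, hk⟩, ?_⟩
    ext d
    show k * (d : G) * k⁻¹ = a * d * (a : G)⁻¹
    rw [hac]
    have := mem_centralizer_iff.1 hc d d.2
    calc k * (d : G) * k⁻¹ = k * (d * c * c⁻¹) * k⁻¹ := by simp
      _ = k * (c * d * c⁻¹) * k⁻¹ := by rw [this]
      _ = k * c * d * (k * c)⁻¹ := by simp [mul_assoc])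
  have hκa : ∀ (a : A) (d : G), d ∈ D → (a : G) * d * (a : G)⁻¹ = (κ a : G) * d * (κ a : G)⁻¹ := by
    intro a d hd
    have h1 := congrArg (fun e : MulAut D => ((e ⟨d, hd⟩ : D) : G)) (hκ a)
    exact h1.symm
  have hker : κ.ker = B.subgroupOf A := by
    rw [hB, ← actHom_ker hAD]
    ext a
    rw [MonoidHom.mem_ker, MonoidHom.mem_ker, ← hκ a]
    constructor
    · intro h; rw [h, map_one]
    · intro h
      have h1 : κ a ∈ center D := by
        rw [mem_center_iff]
        intro g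
        have h2 : κ a * g * (κ a)⁻¹ = g := by
          have := congrArg (fun e : MulAut D => e g) h
          simpa using this
        have h3 := congrArg (· * κ a) h2
        simpa [mul_assoc] using h3.symm
      rwa [hz, mem_bot] at h1
  have hκsq : ∀ a : A, κ a * κ a = 1 := by
    intro a
    rw [← map_mul]
    have : a * a = 1 := Subtype.ext (hA a a.2)
    rw [this, map_one]
  -- the copy of D in N
  let N := centralizer (B : Set G)
  have hJ : Cfsg.Lie.IsoSuzuki ↥(D.subgroupOf N) :=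
    Cfsg.Agent.ThreePrime.ACFacts.isoSuzuki_of_equiv (Subgroup.subgroupOfEquivOfLe hDN) hD
  let ρ' := res ρ N (CS ρ B) CS_stable'
  have hρ' : ∀ y ∈ D.subgroupOf N, y ≠ 1 → ∃ v, ρ' y v ≠ v := by
    -- some element acts nontrivially
    have : Fact (Nat.Prime 5) := ⟨Nat.prime_five⟩
    obtain ⟨x, hx⟩ := exists_prime_orderOf_dvd_card' 5 (Cfsg.Agent.OddCyclic.T1SzComp.five_dvd hD)
    have hxo : orderOf (x : G) = 5 := by rw [Subgroup.orderOf_coe, hx]
    have hx1 : (x : G) ≠ 1 := by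
      intro h
      rw [h, orderOf_one] at hxo
      norm_num at hxo
    obtain ⟨v, hv, hxv⟩ := axb (ρ := ρ) hV (isPGroup_of_sq (fun b hb => hA b (hBA hb)))
      (y := (x : G)) (by rw [hxo]; decide)
      (fun b hb => mem_centralizer_iff.1 (hDN x.2) b hb) (by
        by_contra hcon
        push Not at hcon
        apply hx1
        apply hρ
        rw [map_one]
        ext v
        exact hcon v)
    intro y hy hy1
    have h1 := Cfsg.Agent.OddCyclic.FFSz.nontrivial_of hJ (ρ'.comp (D.subgroupOf N).subtype)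
      ⟨⟨⟨x, hDN x.2⟩, x.2⟩, ⟨v, hv⟩, fun h2 => hxv (congrArg Subtype.val h2)⟩
      (y := ⟨y, hy⟩) (fun h => hy1 (congrArg Subtype.val h))
    exact h1
  obtain ⟨f, hf3, -, -, hrank, hidx⟩ := Cfsg.Agent.OddCyclic.ClaimC.Sz.index_ge (X := N)
    (J := D.subgroupOf N) (V := ↥(CS ρ B)) (ρ := ρ') hJ (fun v => Subtype.ext (hV v)) hρ'
  -- the rank
  have hcard : B.relIndex A ≤ 2 ^ f := by
    rw [relIndex, ← hker, index_ker]
    have h1 := hrank ((κ.range).map (Subgroup.subgroupOfEquivOfLe hDN).symm.toMonoidHom) (by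
      rintro _ ⟨_, ⟨a, rfl⟩, rfl⟩
      rw [← map_mul, hκsq, map_one])
    rwa [Subgroup.card_map_of_injective (MulEquiv.injective _)] at h1
  -- an element outside B
  obtain ⟨a, ha, haB⟩ : ∃ a ∈ A, a ∉ B := by
    by_contra hcon
    push Not at hcon
    exact hBA' (le_antisymm hBA hcon)
  have hκa1 : κ ⟨a, ha⟩ ≠ 1 := by
    intro h
    have : (⟨a, ha⟩ : A) ∈ κ.ker := h
    rw [hker, mem_subgroupOf] at this
    exact haB this
  have h2 := hidx ⟨a, hAN ha⟩ ⟨⟨(κ ⟨a, ha⟩ : G), hDN (κ ⟨a, ha⟩).2⟩, (κ ⟨a, ha⟩).2⟩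
    (by
      apply Subtype.ext
      apply Subtype.ext
      exact congrArg (fun z : D => (z : G)) (hκsq ⟨a, ha⟩))
    (fun h => hκa1 (Subtype.ext (congrArg (fun z => ((z : N) : G)) (congrArg Subtype.val h))))
    (fun y hy => Subtype.ext (hκa ⟨a, ha⟩ y hy))
  rw [fx_res] at h2
  calc (B.relIndex A) ^ 2 ≤ (2 ^ f) ^ 2 := Nat.pow_le_pow_left hcard 2
    _ = 2 ^ (2 * f) := by rw [← pow_mul, mul_comm]
    _ ≤ _ := h2
    _ ≤ (CS ρ A).relIndex (CS ρ B) := by
      refine Subgroup.relIndex_le_of_le_left (L := CS ρ B) ?_ Subgroup.index_ne_zero_of_finite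
      intro w hw
      exact hw a ha

end Cfsg.Agent.H210.Off
end
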